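import Mathlib
import Cfsg.Agent.S0035
import Cfsg.Agent.S0038
import Cfsg.Agent.S3704
import Cfsg.Agent.H360.ON.Count
set_option linter.all false

-- part: H432/Ryser
section
/-!
# Ryser's theorem on symmetric designs

`blk : P → Set X`, `#X = #P`, every block has `k` points, every point is on `r` blocks, any two points are on
`l < r` blocks.  Then `k = r` (`k_eq_r`), any two blocks meet in `l` points (`inter`), and automorphisms fix
as many points as blocks (`card_fix`).
-/

set_option autoImplicit false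
set_option linter.unusedSectionVars false

namespace Cfsg.Agent.H432.Ryser

open Matrix Finset

variable {X P : Type*} [Fintype X] [Fintype P] [DecidableEq X] [DecidableEq P]

/-- incidence matrix -/
noncomputable def M (blk : P → Set X) : Matrix X P ℚ := by
  classical exact Matrix.of fun x p => if x ∈ blk p then 1 else 0

/-- the twisted transpose -/
noncomputable def W (blk : P → Set X) (r l : ℕ) : Matrix P X ℚ :=
  (M blk)ᵀ - ((l : ℚ) / r) • (Matrix.of fun _ _ => 1)

theorem M_apply (blk : P → Set X) (x : X) (p : P) [Decidable (x ∈ blk p)] :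
    M blk x p = if x ∈ blk p then 1 else 0 := by
  unfold M
  rw [Matrix.of_apply]
  split_ifs <;> rfl

structure Hyp (blk : P → Set X) (k r l : ℕ) : Prop where
  card : Fintype.card X = Fintype.card P
  hk : ∀ p, (blk p).ncard = k
  hr : ∀ x, {p | x ∈ blk p}.ncard = r
  hl : ∀ x y, x ≠ y → {p | x ∈ blk p ∧ y ∈ blk p}.ncard = l
  lt : l < r

variable {blk : P → Set X} {k r l : ℕ}

theorem sum_M_row (x : X) : ∑ p, M blk x p = ({p | x ∈ blk p}.ncard : ℚ) := by
  classical
  simp_rw [M_apply]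
  rw [Finset.sum_boole, Set.ncard_eq_toFinset_card']
  congr 2
  ext p; simp

theorem sum_M_col (p : P) : ∑ x, M blk x p = ((blk p).ncard : ℚ) := by
  classical
  simp_rw [M_apply]
  rw [Finset.sum_boole, Set.ncard_eq_toFinset_card']
  congr 2
  ext p; simp

theorem M_mul_transpose (x y : X) : (M blk * (M blk)ᵀ) x y = ({p | x ∈ blk p ∧ y ∈ blk p}.ncard : ℚ) := by
  classical
  rw [Matrix.mul_apply]
  have : ∀ p, M blk x p * (M blk)ᵀ p y = if x ∈ blk p ∧ y ∈ blk p then 1 else 0 := by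
    intro p
    rw [Matrix.transpose_apply, M_apply, M_apply]
    by_cases h1 : x ∈ blk p <;> by_cases h2 : y ∈ blk p <;> simp [h1, h2]
  simp_rw [this]
  rw [Finset.sum_boole, Set.ncard_eq_toFinset_card']
  congr 2
  ext p; simp

theorem transpose_mul_M (p q : P) : ((M blk)ᵀ * M blk) p q = ((blk p ∩ blk q).ncard : ℚ) := by
  classical
  rw [Matrix.mul_apply]
  have : ∀ x, (M blk)ᵀ p x * M blk x q = if x ∈ blk p ∧ x ∈ blk q then 1 else 0 := by
    intro x
    rw [Matrix.transpose_apply, M_apply, M_apply]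
    by_cases h1 : x ∈ blk p <;> by_cases h2 : x ∈ blk q <;> simp [h1, h2]
  simp_rw [this]
  rw [Finset.sum_boole, Set.ncard_eq_toFinset_card']
  congr 2
  ext p; simp

variable (h : Hyp blk k r l)
include h

theorem Hyp.r_pos : (0 : ℚ) < r := by
  have := h.lt
  exact_mod_cast (by omega : 0 < r)

theorem Hyp.c_ne : ((r : ℚ) - l) ≠ 0 := by
  have h1 : (l : ℚ) < r := by exact_mod_cast h.lt
  intro e
  linarith

theorem Hyp.MW : M blk * W blk r l = ((r : ℚ) - l) • (1 : Matrix X X ℚ) := by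
  have hr := h.r_pos
  ext x y
  rw [W, Matrix.mul_sub, Matrix.sub_apply, M_mul_transpose, Matrix.mul_smul, Matrix.smul_apply,
    Matrix.smul_apply]
  have h1 : (M blk * (Matrix.of fun (_ : P) (_ : X) => (1 : ℚ))) x y = r := by
    rw [Matrix.mul_apply]
    simp only [Matrix.of_apply, mul_one]
    rw [sum_M_row, h.hr]
  rw [h1]
  by_cases hxy : x = y
  · subst hxy
    simp only [and_self, Matrix.one_apply_eq, smul_eq_mul]
    rw [h.hr]
    field_simp
  · rw [h.hl x y hxy, Matrix.one_apply_ne hxy]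
    simp only [smul_eq_mul]
    field_simp
    ring

theorem Hyp.WM : W blk r l * M blk = ((r : ℚ) - l) • (1 : Matrix P P ℚ) := by
  have hc := h.c_ne
  have h1 : M blk * (((r : ℚ) - l)⁻¹ • W blk r l) = 1 := by
    rw [Matrix.mul_smul, h.MW, smul_smul, inv_mul_cancel₀ hc, one_smul]
  have h2 := (Matrix.mul_eq_one_comm_of_card_eq X P ℚ h.card).1 h1
  rw [Matrix.smul_mul] at h2
  calc W blk r l * M blk = ((r : ℚ) - l) • (((r : ℚ) - l)⁻¹ • (W blk r l * M blk)) := by
        rw [smul_smul, mul_inv_cancel₀ hc, one_smul]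
    _ = _ := by rw [h2]

theorem Hyp.eqn (p q : P) : ((blk p ∩ blk q).ncard : ℚ) = ((r : ℚ) - l) * (if p = q then 1 else 0) + l / r * k := by
  have h1 : (W blk r l * M blk) p q = ((blk p ∩ blk q).ncard : ℚ) - l / r * k := by
    rw [W, Matrix.sub_mul, Matrix.sub_apply, transpose_mul_M, Matrix.smul_mul, Matrix.smul_apply]
    have h1 : ((Matrix.of fun (_ : P) (_ : X) => (1 : ℚ)) * M blk) p q = k := by
      rw [Matrix.mul_apply]
      simp only [Matrix.of_apply, one_mul]
      rw [sum_M_col, h.hk]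
    rw [h1, smul_eq_mul]
  rw [h.WM, Matrix.smul_apply, Matrix.one_apply, smul_eq_mul] at h1
  linarith

theorem Hyp.k_eq_r [Nonempty P] : k = r := by
  obtain ⟨p⟩ := ‹Nonempty P›
  have h1 := h.eqn p p
  rw [Set.inter_self, h.hk, if_pos rfl, mul_one] at h1
  have hr := h.r_pos
  have hc := h.c_ne
  have h2 : (k : ℚ) * (r - l) = r * (r - l) := by
    field_simp at h1
    linarith
  have h3 : (k : ℚ) = r := mul_right_cancel₀ hc h2
  exact_mod_cast h3

theorem Hyp.inter {p q : P} (hpq : p ≠ q) : (blk p ∩ blk q).ncard = l := by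
  have : Nonempty P := ⟨p⟩
  have h1 := h.eqn p q
  have hr := h.r_pos
  rw [if_neg hpq, mul_zero, zero_add, h.k_eq_r, div_mul_cancel₀ _ hr.ne'] at h1
  exact_mod_cast h1

theorem Hyp.count [Nonempty P] : k * k + l = k + Fintype.card X * l := by
  obtain ⟨p₀⟩ := ‹Nonempty P›
  have hk := h.k_eq_r
  have hne : Nonempty X := by
    by_contra hcon
    rw [not_nonempty_iff] at hcon
    have := h.card
    rw [Fintype.card_eq_zero] at this
    exact (Fintype.card_ne_zero (α := P)) this.symm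
  obtain ⟨x⟩ := id hne
  have h1 : ∑ y, (M blk * (M blk)ᵀ) x y = (k : ℚ) * k := by
    simp_rw [Matrix.mul_apply]
    rw [Finset.sum_comm]
    simp_rw [Matrix.transpose_apply, ← Finset.mul_sum, sum_M_col, h.hk, ← Finset.sum_mul, sum_M_row, h.hr]
    rw [← hk]
  have h2 : ∑ y, (M blk * (M blk)ᵀ) x y = (k : ℚ) + (Fintype.card X - 1) * l := by
    rw [← Finset.add_sum_erase _ _ (Finset.mem_univ x)]
    have h3 : ∀ y ∈ Finset.univ.erase x, (M blk * (M blk)ᵀ) x y = (l : ℚ) := by
      intro y hy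
      rw [M_mul_transpose, h.hl x y (Finset.ne_of_mem_erase hy).symm]
    rw [Finset.sum_congr rfl h3, Finset.sum_const, Finset.card_erase_of_mem (Finset.mem_univ x),
      M_mul_transpose]
    simp only [and_self]
    rw [h.hr, ← hk, Finset.card_univ, nsmul_eq_mul, Nat.cast_sub Fintype.card_pos]
    push_cast
    ring
  rw [h1] at h2
  have h4 : ((k * k + l : ℕ) : ℚ) = ((k + Fintype.card X * l : ℕ) : ℚ) := by
    push_cast
    linarith
  exact_mod_cast h4

/-- An automorphism fixes as many points as blocks. -/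
theorem Hyp.card_fix (σ : Equiv.Perm X) (τ : Equiv.Perm P) (hστ : ∀ x p, σ x ∈ blk (τ p) ↔ x ∈ blk p) :
    {p | τ p = p}.ncard = {x | σ x = x}.ncard := by
  classical
  have hc := h.c_ne
  have hM : ∀ x p, M blk x (τ p) = M blk (σ⁻¹ x) p := by
    intro x p
    rw [M_apply, M_apply]
    have : x ∈ blk (τ p) ↔ σ⁻¹ x ∈ blk p := by
      rw [← hστ (σ⁻¹ x) p, ← Equiv.Perm.mul_apply, mul_inv_cancel, Equiv.Perm.one_apply]
    simp only [this]
  have h1 : ∑ p, (W blk r l * M blk) p (τ p) = ((r : ℚ) - l) * {p | τ p = p}.ncard := by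
    rw [h.WM]
    simp only [Matrix.smul_apply, Matrix.one_apply, smul_eq_mul, ← Finset.mul_sum]
    rw [Finset.sum_boole, Set.ncard_eq_toFinset_card']
    congr 3
    ext p; simp [eq_comm]
  have h2 : ∑ x, (M blk * W blk r l) (σ⁻¹ x) x = ((r : ℚ) - l) * {x | σ x = x}.ncard := by
    rw [h.MW]
    simp only [Matrix.smul_apply, Matrix.one_apply, smul_eq_mul, ← Finset.mul_sum]
    rw [Finset.sum_boole, Set.ncard_eq_toFinset_card']
    congr 3
    ext x
    simp only [mem_filter, mem_univ, true_and, Set.mem_toFinset, Set.mem_ofPred_eq]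
    rw [Equiv.Perm.inv_eq_iff_eq, eq_comm]
  have h3 : ∑ p, (W blk r l * M blk) p (τ p) = ∑ x, (M blk * W blk r l) (σ⁻¹ x) x := by
    simp_rw [Matrix.mul_apply, hM]
    rw [Finset.sum_comm]
    refine Finset.sum_congr rfl fun x _ => Finset.sum_congr rfl fun p _ => mul_comm _ _
  rw [h1, h2] at h3
  have h4 := mul_left_cancel₀ hc h3
  exact_mod_cast h4

end Cfsg.Agent.H432.Ryser
end

-- part: H432/SymDes
section
/-!
# The symmetric design of a 2-transitive group with a second subgroup of index `n` (S3706, S3705)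
-/

set_option autoImplicit false
set_option linter.unusedSectionVars false

namespace Cfsg.Agent.H432.SymDes

open MulAction

variable {G Ω : Type*} [Group G] [MulAction G Ω]

/-- the blocks -/
def blk (H : Subgroup G) (B : Set Ω) (p : G ⧸ H) : Set Ω := {ω | ∃ g : G, (g : G ⧸ H) = p ∧ g⁻¹ • ω ∈ B}

/-- `H` has two orbits `B` and its complement on `Ω`, of size at least two, and `#(G ⧸ H) = #Ω`. -/
structure Des (H : Subgroup G) (B : Set Ω) : Prop where
  h2 : IsMultiplyPretransitive G Ω 2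
  idx : H.index = Nat.card Ω
  orb : Nat.card (orbitRel.Quotient H Ω) = 2
  B_eq : ∃ a, B = orbit H a
  two : 2 ≤ B.ncard
  two' : 2 ≤ Bᶜ.ncard

namespace Des

variable {H : Subgroup G} {B : Set Ω} (D : Des H B)
include D

theorem inv {g : G} (hg : g ∈ H) {b : Ω} : g • b ∈ B ↔ b ∈ B := by
  obtain ⟨a, rfl⟩ := D.B_eq
  have h1 : (⟨g, hg⟩ : H) • b ∈ orbit H a ↔ b ∈ orbit H a := by
    constructor
    · intro hb
      rw [← orbit_eq_iff] at hb ⊢
      rw [← hb, orbit_smul]
    · intro hb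
      rw [← orbit_eq_iff] at hb ⊢
      rw [← hb, orbit_smul]
  exact h1

theorem mem_blk (g : G) (ω : Ω) : ω ∈ blk H B (g : G ⧸ H) ↔ g⁻¹ • ω ∈ B := by
  constructor
  · rintro ⟨g', e, hb⟩
    have h1 : g⁻¹ * g' ∈ H := by
      rw [← QuotientGroup.eq, e]
    have h2 : g⁻¹ • ω = (g⁻¹ * g') • (g'⁻¹ • ω) := by
      rw [mul_smul, smul_inv_smul]
    rw [h2, D.inv h1]
    exact hb
  · intro hb
    exact ⟨g, rfl, hb⟩

theorem smul_mem_blk (g : G) (ω : Ω) (p : G ⧸ H) : g • ω ∈ blk H B (g • p) ↔ ω ∈ blk H B p := by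
  induction p using QuotientGroup.induction_on with
  | H x =>
    rw [show g • ((x : G) : G ⧸ H) = ((g * x : G) : G ⧸ H) from rfl, D.mem_blk, D.mem_blk]
    rw [mul_inv_rev, mul_smul, inv_smul_smul]

theorem mem_blk_one (ω : Ω) : ω ∈ blk H B ((1 : G) : G ⧸ H) ↔ ω ∈ B := by
  rw [D.mem_blk, inv_one, one_smul]

theorem blk_one : blk H B ((1 : G) : G ⧸ H) = B := Set.ext D.mem_blk_one

theorem blk_smul (g : G) (p : G ⧸ H) : blk H B (g • p) = (fun ω => g • ω) '' blk H B p := by
  ext ω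
  constructor
  · intro hω
    refine ⟨g⁻¹ • ω, ?_, smul_inv_smul g ω⟩
    rw [← D.smul_mem_blk g, smul_inv_smul]
    exact hω
  · rintro ⟨ω', hω', rfl⟩
    exact (D.smul_mem_blk g ω' p).2 hω'

variable [Finite G] [Finite Ω]

theorem card_blk (p : G ⧸ H) : (blk H B p).ncard = B.ncard := by
  obtain ⟨g, rfl⟩ := exists_smul_eq G ((1 : G) : G ⧸ H) p
  rw [D.blk_smul, Set.ncard_image_of_injective _ (MulAction.injective g), D.blk_one]

/-- number of blocks on a point -/
theorem exists_rl : ∃ r l : ℕ, l < r ∧ (∀ x : Ω, {p | x ∈ blk H B p}.ncard = r) ∧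
    (∀ x y : Ω, x ≠ y → {p | x ∈ blk H B p ∧ y ∈ blk H B p}.ncard = l) := by
  have h2 := D.h2
  have htr : IsPretransitive G Ω := isPretransitive_of_is_two_pretransitive (G := G) (α := Ω)
  rw [is_two_pretransitive_iff] at h2
  -- a point in `B` and a point not in `B`
  obtain ⟨b, hb⟩ : B.Nonempty := Set.nonempty_of_ncard_ne_zero (by have := D.two; omega)
  obtain ⟨c, hc⟩ : Bᶜ.Nonempty := Set.nonempty_of_ncard_ne_zero (by have := D.two'; omega)
  have hbc : b ≠ c := fun e => hc (e ▸ hb)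
  refine ⟨{p | b ∈ blk H B p}.ncard, {p | b ∈ blk H B p ∧ c ∈ blk H B p}.ncard, ?_, ?_, ?_⟩
  · refine Set.ncard_lt_ncard ?_ (Set.toFinite _)
    refine ⟨fun p hp => hp.1, fun hsub => ?_⟩
    have h1 : ((1 : G) : G ⧸ H) ∈ {p | b ∈ blk H B p} := (D.mem_blk_one b).2 hb
    have h3 := (hsub h1).2
    exact hc ((D.mem_blk_one c).1 h3)
  · intro x
    obtain ⟨g, hg⟩ := exists_smul_eq G b x
    have : {p | x ∈ blk H B p} = (fun p => g • p) '' {p | b ∈ blk H B p} := by
      ext p
      constructor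
      · intro hp
        refine ⟨g⁻¹ • p, ?_, smul_inv_smul g p⟩
        show b ∈ blk H B (g⁻¹ • p)
        rw [← D.smul_mem_blk g, smul_inv_smul, hg]
        exact hp
      · rintro ⟨p', hp', rfl⟩
        show x ∈ blk H B (g • p')
        rw [← hg, D.smul_mem_blk]
        exact hp'
    rw [this, Set.ncard_image_of_injective _ (MulAction.injective g)]
  · intro x y hxy
    obtain ⟨g, hg, hg'⟩ := h2 hbc hxy
    have : {p | x ∈ blk H B p ∧ y ∈ blk H B p} = (fun p => g • p) '' {p | b ∈ blk H B p ∧ c ∈ blk H B p} := by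
      ext p
      constructor
      · intro hp
        refine ⟨g⁻¹ • p, ?_, smul_inv_smul g p⟩
        show b ∈ blk H B (g⁻¹ • p) ∧ c ∈ blk H B (g⁻¹ • p)
        rw [← D.smul_mem_blk g b, ← D.smul_mem_blk g c, smul_inv_smul, hg, hg']
        exact hp
      · rintro ⟨p', hp', rfl⟩
        show x ∈ blk H B (g • p') ∧ y ∈ blk H B (g • p')
        rw [← hg, ← hg', D.smul_mem_blk, D.smul_mem_blk]
        exact hp'
    rw [this, Set.ncard_image_of_injective _ (MulAction.injective g)]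

theorem card_quot : Nat.card (G ⧸ H) = Nat.card Ω := by
  rw [← D.idx]; rfl

/-- Ryser -/
theorem ryser : ∃ l : ℕ, l < B.ncard ∧ 1 ≤ l ∧ B.ncard * B.ncard + l = B.ncard + Nat.card Ω * l ∧
    (∀ x : Ω, {p | x ∈ blk H B p}.ncard = B.ncard) ∧
    (∀ x y : Ω, x ≠ y → {p | x ∈ blk H B p ∧ y ∈ blk H B p}.ncard = l) ∧
    (∀ p q : G ⧸ H, p ≠ q → (blk H B p ∩ blk H B q).ncard = l) ∧
    (∀ g : G, (fixedBy (G ⧸ H) g).ncard = (fixedBy Ω g).ncard) := by
  classical
  obtain ⟨r, l, hlt, hr, hl⟩ := D.exists_rl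
  have : Fintype Ω := Fintype.ofFinite Ω
  have : Fintype (G ⧸ H) := Fintype.ofFinite _
  have hyp : Ryser.Hyp (blk H B) B.ncard r l :=
    { card := by
        have := D.card_quot
        rw [Nat.card_eq_fintype_card, Nat.card_eq_fintype_card] at this
        exact this.symm
      hk := D.card_blk
      hr := hr
      hl := hl
      lt := hlt }
  have hne : Nonempty (G ⧸ H) := ⟨((1 : G) : G ⧸ H)⟩
  have hkr := hyp.k_eq_r
  have hcount := hyp.count
  rw [← Nat.card_eq_fintype_card] at hcount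
  refine ⟨l, by omega, ?_, hcount, by rw [hkr]; exact hr, hl, fun p q hpq => hyp.inter hpq, fun g => ?_⟩
  · by_contra hcon
    have h0 : l = 0 := by omega
    subst h0
    have := D.two
    have h1 : B.ncard * B.ncard = B.ncard := by simpa using hcount
    have h2 : 2 * B.ncard ≤ B.ncard * B.ncard := Nat.mul_le_mul_right _ this
    omega
  · exact hyp.card_fix (MulAction.toPerm g) (MulAction.toPerm g) (fun x p => D.smul_mem_blk g x p)

theorem same_orbit {x y : Ω} (hx : x ∉ B) (hy : y ∉ B) : ∃ g ∈ H, g • x = y := by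
  obtain ⟨a, ha⟩ := D.B_eq
  have horb := D.orb
  have h1 : ∀ z : Ω, z ∉ B → (Quotient.mk'' z : orbitRel.Quotient H Ω) ≠ Quotient.mk'' a := by
    intro z hz e
    apply hz
    rw [ha]
    exact orbitRel_apply.1 (Quotient.exact' e)
  have h2 : (Quotient.mk'' y : orbitRel.Quotient H Ω) = Quotient.mk'' x := by
    by_contra hne
    have hfin : Finite (orbitRel.Quotient H Ω) := Nat.finite_of_card_ne_zero (by omega)
    have h3 : ({Quotient.mk'' a, Quotient.mk'' x, Quotient.mk'' y} : Set (orbitRel.Quotient H Ω)).ncard = 3 := by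
      rw [Set.ncard_eq_three]
      exact ⟨_, _, _, (h1 x hx).symm, (h1 y hy).symm, fun e => hne e.symm, rfl⟩
    have h4 := Set.ncard_le_card ({Quotient.mk'' a, Quotient.mk'' x, Quotient.mk'' y} : Set (orbitRel.Quotient H Ω))
    omega
  obtain ⟨g, hg⟩ := orbitRel_apply.1 (Quotient.exact' h2)
  exact ⟨g.1, g.2, hg⟩

/-- `G` is 2-transitive on the blocks. -/
theorem two_trans : IsMultiplyPretransitive G (G ⧸ H) 2 := by
  classical
  obtain ⟨l, -, -, -, -, -, -, hfix⟩ := D.ryser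
  have : Fintype Ω := Fintype.ofFinite Ω
  have : Fintype (G ⧸ H) := Fintype.ofFinite _
  have : Fintype H := Fintype.ofFinite _
  have : Fintype (orbitRel.Quotient H Ω) := Fintype.ofFinite _
  have : Fintype (orbitRel.Quotient H (G ⧸ H)) := Fintype.ofFinite _
  have h1 := sum_card_fixedBy_eq_card_orbits_mul_card_group H Ω
  have h2 := sum_card_fixedBy_eq_card_orbits_mul_card_group H (G ⧸ H)
  have h3 : (∑ g : H, Fintype.card (fixedBy Ω g)) = ∑ g : H, Fintype.card (fixedBy (G ⧸ H) g) := by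
    refine Finset.sum_congr rfl fun g _ => ?_
    have := hfix g.1
    rw [Set.ncard_eq_toFinset_card', Set.ncard_eq_toFinset_card', Set.toFinset_card, Set.toFinset_card] at this
    refine Eq.trans ?_ (this.symm.trans ?_)
    · exact Fintype.card_congr (Equiv.refl _)
    · exact Fintype.card_congr (Equiv.refl _)
  rw [h1, h2] at h3
  have h4 : Nat.card (orbitRel.Quotient H (G ⧸ H)) = 2 := by
    rw [← D.orb, Nat.card_eq_fintype_card, Nat.card_eq_fintype_card]
    exact (Nat.eq_of_mul_eq_mul_right Fintype.card_pos h3).symm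
  -- `H` is transitive on the other blocks
  have hone : ∀ g ∈ H, g • ((1 : G) : G ⧸ H) = ((1 : G) : G ⧸ H) := by
    intro g hg
    rw [show g • ((1 : G) : G ⧸ H) = ((g * 1 : G) : G ⧸ H) from rfl, QuotientGroup.eq]
    simpa using hg
  have hpt : ∀ p : G ⧸ H, p ≠ ((1 : G) : G ⧸ H) →
      (Quotient.mk'' p : orbitRel.Quotient H (G ⧸ H)) ≠ Quotient.mk'' ((1 : G) : G ⧸ H) := by
    intro p hp e
    obtain ⟨g, hg⟩ := orbitRel_apply.1 (Quotient.exact' e)
    apply hp
    rw [← hg]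
    exact hone g.1 g.2
  have key : ∀ p q : G ⧸ H, p ≠ ((1 : G) : G ⧸ H) → q ≠ ((1 : G) : G ⧸ H) → ∃ g ∈ H, g • p = q := by
    intro p q hp hq
    have h5 : (Quotient.mk'' q : orbitRel.Quotient H (G ⧸ H)) = Quotient.mk'' p := by
      by_contra hne
      have h3 : ({Quotient.mk'' ((1 : G) : G ⧸ H), Quotient.mk'' p, Quotient.mk'' q} :
          Set (orbitRel.Quotient H (G ⧸ H))).ncard = 3 := by
        rw [Set.ncard_eq_three]
        exact ⟨_, _, _, (hpt p hp).symm, (hpt q hq).symm, fun e => hne e.symm, rfl⟩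
      have h4 := Set.ncard_le_card ({Quotient.mk'' ((1 : G) : G ⧸ H), Quotient.mk'' p, Quotient.mk'' q} :
          Set (orbitRel.Quotient H (G ⧸ H)))
      omega
    obtain ⟨g, hg⟩ := orbitRel_apply.1 (Quotient.exact' h5)
    exact ⟨g.1, g.2, hg⟩
  rw [is_two_pretransitive_iff]
  intro p q p' q' hpq hpq'
  obtain ⟨g, hg⟩ := exists_smul_eq G p ((1 : G) : G ⧸ H)
  obtain ⟨g', hg'⟩ := exists_smul_eq G p' ((1 : G) : G ⧸ H)
  obtain ⟨s, hs, e⟩ := key (g • q) (g' • q')
    (fun e => hpq (smul_left_cancel g (hg.trans e.symm)))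
    (fun e => hpq' (smul_left_cancel g' (hg'.trans e.symm)))
  refine ⟨g'⁻¹ * (s * g), ?_, ?_⟩
  · rw [mul_smul, mul_smul, hg, hone s hs, inv_smul_eq_iff, hg']
  · rw [mul_smul, mul_smul, e, inv_smul_smul]

end Des

end Cfsg.Agent.H432.SymDes
end

-- part: H432/SymKer
section
/-!
# Elements fixing a block pointwise (S3706, S3705)

`eq_one_of_fix_two`: an element fixing all the points of a block and two further points is trivial.
`exists_axis`: if some non-identity element fixes the block `B` pointwise, then there is a non-trivial subgroup `A₀`,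
normalized by `H`, of elements fixing `B` pointwise and, if `≠ 1`, no other point.
-/

set_option autoImplicit false
set_option linter.unusedSectionVars false

namespace Cfsg.Agent.H432.SymDes

open MulAction

variable {G Ω : Type*} [Group G] [MulAction G Ω]

namespace Des

variable {H : Subgroup G} {B : Set Ω} (D : Des H B) [Finite G] [Finite Ω]
include D

/-- if `g` fixes `B` pointwise and `x ∉ B`, then it fixes the blocks through `x` -/
theorem fix_blk {g : G} (hg : ∀ b ∈ B, g • b = b) {x : Ω} (hx : x ∉ B) (hgx : g • x = x) {q : G ⧸ H}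
    (hq : x ∈ blk H B q) : g • q = q := by
  obtain ⟨l, hlk, h1l, hcount, hr, hl, hint, -⟩ := D.ryser
  by_contra hne
  have hq1 : q ≠ ((1 : G) : G ⧸ H) := by
    intro e
    apply hx
    rw [← D.mem_blk_one, ← e]
    exact hq
  have h1 := hint (g • q) q hne
  have h2 := hint q ((1 : G) : G ⧸ H) hq1
  rw [D.blk_one] at h2
  have h3 : insert x (blk H B q ∩ B) ⊆ blk H B (g • q) ∩ blk H B q := by
    intro y hy
    rcases hy with rfl | hy
    · refine ⟨?_, hq⟩
      have := (D.smul_mem_blk g y q).2 hq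
      rwa [hgx] at this
    · refine ⟨?_, hy.1⟩
      have := (D.smul_mem_blk g y q).2 hy.1
      rwa [hg y hy.2] at this
  have h4 := Set.ncard_le_ncard h3 (Set.toFinite _)
  rw [Set.ncard_insert_of_notMem (fun e => hx e.2) (Set.toFinite _), h1, h2] at h4
  omega

/-- An element fixing all the points of a block and two further points is trivial. -/
theorem eq_one_of_fix_two [FaithfulSMul G Ω] {g : G} (hg : ∀ b ∈ B, g • b = b) {x y : Ω} (hx : x ∉ B)
    (hy : y ∉ B) (hxy : x ≠ y) (hgx : g • x = x) (hgy : g • y = y) : g = 1 := by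
  obtain ⟨l, hlk, h1l, hcount, hr, hl, hint, -⟩ := D.ryser
  by_contra hg1
  -- a moved point
  obtain ⟨z₀, hz₀⟩ : ∃ z : Ω, g • z ≠ z := by
    by_contra hcon
    push Not at hcon
    exact hg1 (eq_of_smul_eq_smul (α := Ω) (fun z => by rw [hcon z, one_smul]))
  let S : Ω → Ω → Set (G ⧸ H) := fun u v => {p | u ∈ blk H B p ∧ v ∈ blk H B p}
  have hS : ∀ u v, u ≠ v → (S u v).ncard = l := hl
  -- fixed `u`, moved `z`
  have key : ∀ u z, u ∉ B → g • u = u → g • z ≠ z → S u z = S z (g • z) := by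
    intro u z hu hgu hz
    have huz : u ≠ z := fun e => hz (by rw [← e]; exact hgu)
    refine Set.eq_of_subset_of_ncard_le ?_ (by rw [hS u z huz, hS z (g • z) hz.symm]) (Set.toFinite _)
    intro p hp
    refine ⟨hp.2, ?_⟩
    have h1 := D.fix_blk hg hu hgu hp.1
    have h2 := (D.smul_mem_blk g z p).2 hp.2
    rwa [h1] at h2
  have key2 : ∀ u z, u ∉ B → g • u = u → g • z ≠ z → u ≠ x → S x z = S x u := by
    intro u z hu hgu hz hux
    have h1 := key x z hx hgx hz
    have h2 := key u z hu hgu hz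
    have hxz : x ≠ z := fun e => hz (by rw [← e]; exact hgx)
    refine Set.eq_of_subset_of_ncard_le ?_ (by rw [hS x z hxz, hS x u hux.symm]) (Set.toFinite _)
    intro p hp
    refine ⟨hp.1, ?_⟩
    have h3 : p ∈ S u z := by rw [h2, ← h1]; exact hp
    exact h3.1
  -- every block through `x`, `y` contains the complement of `B`
  have key3 : ∀ p ∈ S x y, ∀ w, w ∉ B → w ∈ blk H B p := by
    intro p hp w hw
    by_cases hwx : w = x
    · rw [hwx]; exact hp.1
    by_cases hgw : g • w = w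
    · have h1 := key2 w z₀ hw hgw hz₀ hwx
      have h2 := key2 y z₀ hy hgy hz₀ hxy.symm
      have h3 : p ∈ S x w := by rw [← h1, h2]; exact hp
      exact h3.2
    · have h2 := key2 y w hy hgy hgw hxy.symm
      have h3 : p ∈ S x w := by rw [h2]; exact hp
      exact h3.2
  obtain ⟨p, hp⟩ : (S x y).Nonempty := Set.nonempty_of_ncard_ne_zero (by rw [hS x y hxy]; omega)
  have hp1 : p ≠ ((1 : G) : G ⧸ H) := by
    intro e
    apply hx
    rw [← D.mem_blk_one, ← e]
    exact hp.1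
  have h1 := hint p _ hp1
  rw [D.blk_one] at h1
  have h2 : blk H B p = (blk H B p ∩ B) ∪ Bᶜ := by
    ext w
    constructor
    · intro hw
      by_cases hwB : w ∈ B
      · exact Or.inl ⟨hw, hwB⟩
      · exact Or.inr hwB
    · rintro (hw | hw)
      · exact hw.1
      · exact key3 p hp w hw
  have h3 : (blk H B p).ncard = l + Bᶜ.ncard := by
    conv_lhs => rw [h2]
    rw [Set.ncard_union_eq ?_ (Set.toFinite _) (Set.toFinite _), h1]
    exact Set.disjoint_left.2 fun w hw hw' => hw' hw.2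
  rw [D.card_blk] at h3
  have h4 := Set.ncard_add_ncard_compl B
  have h5 := D.two'
  have h6 := D.two
  generalize B.ncard = k at *
  generalize Bᶜ.ncard = m at *
  rw [← h4] at hcount
  have hm : m = k - l := by omega
  obtain ⟨j, rfl⟩ : ∃ j, k = l + j := ⟨k - l, by omega⟩
  have hj : m = j := by omega
  subst hj
  nlinarith

/-- There is a non-trivial subgroup, normalized by `H`, of elements fixing `B` pointwise and no other point. -/
theorem exists_axis [FaithfulSMul G Ω] (hex : ∃ g : G, g ≠ 1 ∧ ∀ b ∈ B, g • b = b) :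
    ∃ A₀ : Subgroup G, (∃ a ∈ A₀, a ≠ 1) ∧ A₀ ≤ H ∧ (∀ g ∈ H, ∀ a ∈ A₀, g * a * g⁻¹ ∈ A₀) ∧
      (∀ a ∈ A₀, ∀ b ∈ B, a • b = b) ∧ (∀ a ∈ A₀, a ≠ 1 → ∀ x, x ∉ B → a • x ≠ x) := by
  -- the pointwise stabilizer
  let K : Subgroup G := fixingSubgroup G B
  have hK : ∀ g : G, g ∈ K ↔ ∀ b ∈ B, g • b = b := by
    intro g
    exact mem_fixingSubgroup_iff G
  have hKH : K ≤ H := by
    intro g hg
    obtain ⟨l, hlk, h1l, hcount, hr, hl, hint, -⟩ := D.ryser
    by_contra hgH
    have hne : ((g : G) : G ⧸ H) ≠ ((1 : G) : G ⧸ H) := by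
      intro e
      rw [QuotientGroup.eq] at e
      exact hgH (by simpa using e)
    have h1 := hint _ _ hne
    have h2 : blk H B ((g : G) : G ⧸ H) = B := by
      ext ω
      rw [D.mem_blk]
      constructor
      · intro hω
        have := (hK g).1 hg _ hω
        rw [smul_inv_smul] at this
        rw [this]
        exact hω
      · intro hω
        have := (hK g⁻¹).1 (inv_mem hg) _ hω
        rw [this]
        exact hω
    rw [h2, D.blk_one, Set.inter_self] at h1
    omega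
  have hKn : ∀ g ∈ H, ∀ a ∈ K, g * a * g⁻¹ ∈ K := by
    intro g hg a ha
    rw [hK] at ha ⊢
    intro b hb
    rw [mul_smul, mul_smul, ha _ ((D.inv (inv_mem hg)).2 hb), smul_inv_smul]
  by_cases hsr : ∀ a ∈ K, a ≠ 1 → ∀ x, x ∉ B → a • x ≠ x
  · obtain ⟨g, hg1, hg⟩ := hex
    exact ⟨K, ⟨g, (hK g).2 hg, hg1⟩, hKH, hKn, fun a ha => (hK a).1 ha, hsr⟩
  push Not at hsr
  obtain ⟨a₀, ha₀, ha₀1, x₀, hx₀, hax₀⟩ := hsr
  -- point stabilizers in `K`
  let C : Ω → Subgroup K := fun x => (stabilizer G x).subgroupOf K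
  have hC : ∀ x (a : K), a ∈ C x ↔ a.1 • x = x := fun x a => Iff.rfl
  have hfr : ∀ x, x ∉ B → Cfsg.IsFrobeniusComplement (C x) := by
    intro x hx
    obtain ⟨g, hg, hgx⟩ := D.same_orbit hx₀ hx
    refine ⟨?_, ?_, ?_⟩
    · intro hbot
      have hmem : (⟨g * a₀ * g⁻¹, hKn g hg a₀ ha₀⟩ : K) ∈ C x := by
        rw [hC]
        show (g * a₀ * g⁻¹) • x = x
        rw [← hgx, mul_smul, mul_smul, inv_smul_smul, hax₀]
      rw [hbot, Subgroup.mem_bot] at hmem
      have h1 : g * a₀ * g⁻¹ = 1 := congrArg Subtype.val hmem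
      apply ha₀1
      have h2 : a₀ = g⁻¹ * (g * a₀ * g⁻¹) * g := by group
      rw [h2, h1]; group
    · intro htop
      apply ha₀1
      refine eq_of_smul_eq_smul (α := Ω) (fun w => ?_)
      rw [one_smul]
      by_cases hw : w ∈ B
      · exact (hK a₀).1 ha₀ w hw
      · obtain ⟨s, hs, hsw⟩ := D.same_orbit hx hw
        have h3 : (⟨s⁻¹ * a₀ * s, by simpa using hKn s⁻¹ (inv_mem hs) a₀ ha₀⟩ : K) ∈ C x := by
          rw [htop]; trivial
        rw [hC] at h3
        have h4 : (s⁻¹ * a₀ * s) • x = x := h3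
        rw [mul_smul, mul_smul, hsw, inv_smul_eq_iff, hsw] at h4
        exact h4
    · intro u hu
      rw [Subgroup.eq_bot_iff_forall]
      intro v hv
      obtain ⟨hv1, hv2⟩ := Subgroup.mem_inf.1 hv
      rw [hC] at hv1
      rw [Subgroup.mem_pointwise_smul_iff_inv_smul_mem] at hv2
      have h5 : v.1 • (u.1 • x) = u.1 • x := by
        have h6 : ((MulAut.conj u)⁻¹ • v).1 • x = x := hv2
        have h7 : ((MulAut.conj u)⁻¹ • v).1 = u.1⁻¹ * v.1 * u.1 := by
          rw [← map_inv, MulAut.smul_def, MulAut.conj_apply]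
          simp
        rw [h7, mul_smul, mul_smul, inv_smul_eq_iff] at h6
        exact h6
      have hux : x ≠ u.1 • x := fun e => hu (by rw [hC]; exact e.symm)
      have huB : u.1 • x ∉ B := fun e => hx ((D.inv (hKH u.2)).1 e)
      exact Subtype.ext (D.eq_one_of_fix_two ((hK v.1).1 v.2) hx huB hux hv1 h5)
  -- the Frobenius kernel
  obtain ⟨N, hN, hNn, hNc⟩ := Cfsg.Agent.S0035.result (C x₀) (hfr x₀ hx₀)
  have hNfix : ∀ a ∈ N, a ≠ 1 → ∀ x, x ∉ B → a.1 • x ≠ x := by
    intro a ha ha1 x hx hax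
    have ha' : a ∈ Cfsg.frobeniusKernel (C x₀) := by rw [← hN]; exact ha
    rcases ha' with e | ha'
    · exact ha1 e
    obtain ⟨u, hu⟩ := Cfsg.Agent.S0038.result (C x) (C x₀) (hfr x hx) (hfr x₀ hx₀)
    apply ha' u
    rw [hu]
    exact hax
  have hNof : ∀ a : K, (∀ x, x ∉ B → a.1 • x ≠ x) → a ∈ N := by
    intro a ha
    have : a ∈ (N : Set K) := by
      rw [hN]
      refine Or.inr fun u hu => ?_
      rw [Subgroup.mem_pointwise_smul_iff_inv_smul_mem] at hu
      have h6 : ((MulAut.conj u)⁻¹ • a).1 • x₀ = x₀ := hu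
      have h7 : ((MulAut.conj u)⁻¹ • a).1 = u.1⁻¹ * a.1 * u.1 := by
        rw [← map_inv, MulAut.smul_def, MulAut.conj_apply]
        simp
      rw [h7, mul_smul, mul_smul, inv_smul_eq_iff] at h6
      exact ha (u.1 • x₀) (fun e => hx₀ ((D.inv (hKH u.2)).1 e)) h6
    exact this
  have hNne : ∃ a ∈ N, a ≠ 1 := by
    by_contra hcon
    push Not at hcon
    have hbot : N = ⊥ := (Subgroup.eq_bot_iff_forall N).2 hcon
    rw [hbot] at hNc
    have := Subgroup.isComplement'_bot_left.1 hNc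
    exact (hfr x₀ hx₀).2.1 this
  refine ⟨N.map K.subtype, ?_, ?_, ?_, ?_, ?_⟩
  · obtain ⟨a, ha, ha1⟩ := hNne
    exact ⟨a.1, ⟨a, ha, rfl⟩, fun e => ha1 (Subtype.ext e)⟩
  · rintro _ ⟨a, -, rfl⟩
    exact hKH a.2
  · rintro g hg _ ⟨a, ha, rfl⟩
    refine ⟨⟨g * a.1 * g⁻¹, hKn g hg a.1 a.2⟩, ?_, rfl⟩
    by_cases ha1 : a = 1
    · subst ha1
      have : (⟨g * (1 : K).1 * g⁻¹, hKn g hg (1 : K).1 (1 : K).2⟩ : K) = 1 := by
        apply Subtype.ext
        show g * 1 * g⁻¹ = 1
        group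
      rw [this]
      exact one_mem N
    · apply hNof
      intro x hx e
      have e' : (g * a.1 * g⁻¹) • x = x := e
      rw [mul_smul, mul_smul, ← eq_inv_smul_iff] at e'
      exact hNfix a ha ha1 (g⁻¹ • x) (fun e2 => hx ((D.inv (inv_mem hg)).1 e2)) e'
  · rintro _ ⟨a, -, rfl⟩
    exact (hK a.1).1 a.2
  · rintro _ ⟨a, ha, rfl⟩ ha1 x hx
    exact hNfix a ha (fun e => ha1 (by rw [e]; rfl)) x hx

end Des

end Cfsg.Agent.H432.SymDes
end

-- part: H432/LinSys
section
/-!
# Linear spaces with central collineations (S3706, S3705)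

`Sys A L q k`: `G` acts on `P`, `L x y` (`x ≠ y`) are the lines of a linear space on `P` with `q + 1` points on each line,
`A x` is a family of subgroups, normal in the point stabilizers, of central collineations with centre `x`,
transitive on `L x y \ {x}`, and every non identity element of `A x` fixes exactly `k` points.

* `fix_of_two` : an element of `A x` fixing two points of a line not through `x` fixes the line pointwise.
* `fixed_br` : for `c ∈ A y` fixing `x` and `b ∈ A x` not fixing `y` the commutator `⁅b, c⁆ ∈ A x` and `c` have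
  the same fixed points.
* `fix_line` : an element of `A x` fixing `y` fixes the line `L x y` pointwise.
-/

set_option autoImplicit false

namespace Cfsg.Agent.H432.Lin

open MulAction
open scoped commutatorElement

variable {G P : Type*} [Group G] [MulAction G P]

/-- Linear space with central collineations. -/
structure Sys (A : P → Subgroup G) (L : P → P → Set P) (q k : ℕ) : Prop where
  conj : ∀ (g : G) (x : P) (a : G), a ∈ A x → g * a * g⁻¹ ∈ A (g • x)
  fix : ∀ (x : P) (a : G), a ∈ A x → a • x = x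
  ti : ∀ (x y : P) (a : G), x ≠ y → a ∈ A x → a ∈ A y → a = 1
  left : ∀ x y : P, x ≠ y → x ∈ L x y
  right : ∀ x y : P, x ≠ y → y ∈ L x y
  line : ∀ x y z w : P, x ≠ y → z ∈ L x y → w ∈ L x y → z ≠ w → L z w = L x y
  sm : ∀ (g : G) (x y z : P), x ≠ y → z ∈ L x y → g • z ∈ L (g • x) (g • y)
  trans : ∀ x y z : P, x ≠ y → z ∈ L x y → z ≠ x → ∃ a ∈ A x, a • y = z
  stay : ∀ (x y : P) (a : G), x ≠ y → a ∈ A x → a • y ∈ L x y
  card_line : ∀ x y : P, x ≠ y → (L x y).ncard = q + 1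
  card_fix : ∀ (x : P) (a : G), a ∈ A x → a ≠ 1 → (fixedBy P a).ncard = k
  two_le : 2 ≤ q
  le_k : q + 1 ≤ k
  k_lt : k < Nat.card P

namespace Sys

variable {A : P → Subgroup G} {L : P → P → Set P} {q k : ℕ} (h : Sys A L q k)
include h

theorem symm {x y : P} (hxy : x ≠ y) : L y x = L x y :=
  h.line x y y x hxy (h.right x y hxy) (h.left x y hxy) hxy.symm

theorem smul_ne {x y : P} {a : G} (hxy : x ≠ y) (ha : a ∈ A x) : a • y ≠ x := by
  intro e
  apply hxy
  have : a • y = a • x := by rw [e, h.fix x a ha]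
  exact (smul_left_cancel a this).symm

/-- if `w ∈ L x z`, `w ≠ x` then `L x w = L x z` -/
theorem eqx {x z w : P} (hxz : x ≠ z) (hw : w ∈ L x z) (hwx : w ≠ x) : L x w = L x z :=
  h.line x z x w hxz (h.left x z hxz) hw hwx.symm

/-- collinearity is symmetric -/
theorem col {x y z : P} (hxy : x ≠ y) (hxz : x ≠ z) (hz : z ∈ L x y) : y ∈ L x z := by
  rw [h.eqx hxy hz hxz.symm]
  exact h.right x y hxy

/-- elements of `A x` commute with elements of `A y` if they fix `y`, resp. `x` -/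
theorem comm {x y : P} (hxy : x ≠ y) {a b : G} (ha : a ∈ A x) (hay : a • y = y) (hb : b ∈ A y)
    (hbx : b • x = x) : a * b = b * a := by
  have h1 : a * b * a⁻¹ ∈ A y := by
    have := h.conj a y b hb
    rwa [hay] at this
  have h2 : b * a⁻¹ * b⁻¹ ∈ A x := by
    have := h.conj b x a⁻¹ (inv_mem ha)
    rwa [hbx] at this
  have h3 : a * b * a⁻¹ * b⁻¹ = 1 := by
    refine h.ti x y _ hxy ?_ ?_
    · have : a * b * a⁻¹ * b⁻¹ = a * (b * a⁻¹ * b⁻¹) := by group
      rw [this]
      exact mul_mem ha h2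
    · exact mul_mem h1 (inv_mem hb)
  have := mul_eq_one_iff_eq_inv.1 h3
  rw [inv_inv] at this
  calc a * b = (a * b * a⁻¹) * a := by group
    _ = b * a := by rw [this]

/-- an element of `A x` fixing two points of a line not through `x` fixes this line pointwise -/
theorem fix_of_two {x y z : P} {a : G} (ha : a ∈ A x) (hyz : y ≠ z) (hx : x ∉ L y z) (hy : a • y = y)
    (hz : a • z = z) {w : P} (hw : w ∈ L y z) : a • w = w := by
  by_contra hne
  have hxw : x ≠ w := fun e => hx (e ▸ hw)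
  have h1 : a • w ∈ L x w := h.stay x w a hxw ha
  have h2 : a • w ∈ L y z := by
    have := h.sm a y z w hyz hw
    rwa [hy, hz] at this
  have h3 := h.line x w _ _ hxw h1 (h.right x w hxw) hne
  have h4 := h.line y z _ _ hyz h2 hw hne
  apply hx
  rw [← h4, h3]
  exact h.left x w hxw

/-- the commutator -/
theorem br_mem {x : P} {b c : G} (hb : b ∈ A x) (hc : c • x = x) : ⁅b, c⁆ ∈ A x := by
  have h2 : c * b⁻¹ * c⁻¹ ∈ A x := by
    have := h.conj c x b⁻¹ (inv_mem hb)
    rwa [hc] at this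
  have : ⁅b, c⁆ = b * (c * b⁻¹ * c⁻¹) := by rw [commutatorElement_def]; group
  rw [this]
  exact mul_mem hb h2

theorem br_ne {y : P} {b c : G} (hby : b • y ≠ y) (hc : c ∈ A y) (hc1 : c ≠ 1) : ⁅b, c⁆ ≠ 1 := by
  intro e
  apply hc1
  refine h.ti (b • y) y c hby ?_ hc
  have := h.conj b y c hc
  rw [commutatorElement_eq_one_iff_mul_comm] at e
  have e2 : b * c * b⁻¹ = c := by rw [e]; group
  rwa [e2] at this

theorem br_fix_iff {x y : P} (hxy : x ≠ y) {b c : G} (hb : b ∈ A x) (hby : b • y ≠ y) (hc : c ∈ A y)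
    (hcx : c • x = x) {D : P} (hD : D ∉ L x y) : ⁅b, c⁆ • D = D ↔ c • D = D := by
  have hDx : x ≠ D := fun e => hD (e ▸ h.left x y hxy)
  have hDy : y ≠ D := fun e => hD (e ▸ h.right x y hxy)
  constructor
  · intro hd
    by_contra hne
    set E : P := c⁻¹ • D with hE
    have hcE : c • E = D := by rw [hE, smul_inv_smul]
    have hED : E ≠ D := by
      intro e
      apply hne
      rw [← hcE, e]
      rw [e] at hcE
      rw [hcE, hcE]
    have hEl : E ∈ L y D := h.stay y D c⁻¹ hDy (inv_mem hc)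
    have hEy : E ≠ y := h.smul_ne hDy (inv_mem hc)
    have hLE : L y E = L y D := h.eqx hDy hEl hEy
    have hyx : L y x = L x y := h.symm hxy
    have hEnl : E ∉ L x y := by
      intro he
      rw [← hyx] at he
      have := h.eqx hxy.symm he hEy
      apply hD
      rw [← hyx, ← this, hLE]
      exact h.right y D hDy
    have hbyl : b • y ∈ L x y := h.stay x y b hxy hb
    have hbyE : b • y ≠ E := fun e => hEnl (e ▸ hbyl)
    have hmem : b * c * b⁻¹ ∈ A (b • y) := h.conj b y c hc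
    have hED2 : (b * c * b⁻¹) • E = D := by
      rw [hE, ← mul_smul]
      have : b * c * b⁻¹ * c⁻¹ = ⁅b, c⁆ := by rw [commutatorElement_def]
      rw [this, hd]
    have hD2 : D ∈ L (b • y) E := by
      have := h.stay (b • y) E _ hbyE hmem
      rwa [hED2] at this
    have hD3 : L E D = L (b • y) E := h.line _ _ _ _ hbyE (h.right _ _ hbyE) hD2 hED
    have hD4 : L E D = L y D := h.line _ _ _ _ hDy hEl (h.right _ _ hDy) hED
    have h5 : b • y ∈ L E D := hD3 ▸ h.left _ _ hbyE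
    have h6 : y ∈ L E D := hD4 ▸ h.left _ _ hDy
    have h7 : L (b • y) y = L E D := h.line _ _ _ _ hED h5 h6 hby
    have h8 : L (b • y) y = L x y := h.line _ _ _ _ hxy hbyl (h.right _ _ hxy) hby
    apply hD
    rw [← h8, h7]
    exact h.right _ _ hED
  · intro hcD
    have hy : y ∉ L x D := fun e => hD (h.col hDx hxy e)
    have h1 : b⁻¹ • D ∈ L x D := h.stay x D b⁻¹ hDx (inv_mem hb)
    have h2 : c • (b⁻¹ • D) = b⁻¹ • D := h.fix_of_two hc hDx hy hcx hcD h1
    have h3 : c⁻¹ • D = D := by rw [inv_smul_eq_iff, hcD]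
    rw [commutatorElement_def, mul_smul, mul_smul, mul_smul, h3, h2, smul_inv_smul]

section fin

variable [Finite P]

/-- three points on each line: a third point -/
theorem exists_third {x y : P} (hxy : x ≠ y) (z w : P) : ∃ u ∈ L x y, u ≠ z ∧ u ≠ w := by
  by_contra hcon
  push Not at hcon
  have h1 : L x y ⊆ {z, w} := by
    intro u hu
    by_cases e : u = z
    · exact Or.inl e
    · exact Or.inr (hcon u hu e)
  have h2 := Set.ncard_le_ncard h1 (Set.toFinite _)
  rw [h.card_line x y hxy] at h2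
  have h3 : ({z, w} : Set P).ncard ≤ 2 := Set.ncard_insert_le z {w} |>.trans (by simp)
  have := h.two_le
  omega

/-- elements of `A x` moving `y` -/
theorem exists_move {x y : P} (hxy : x ≠ y) : ∃ b ∈ A x, b • y ≠ y := by
  obtain ⟨u, hu, hux, huy⟩ := h.exists_third hxy x y
  obtain ⟨b, hb, e⟩ := h.trans x y u hxy hu hux
  exact ⟨b, hb, by rw [e]; exact huy⟩

theorem fixed_br {x y : P} (hxy : x ≠ y) {b c : G} (hb : b ∈ A x) (hby : b • y ≠ y) (hc : c ∈ A y)
    (hc1 : c ≠ 1) (hcx : c • x = x) : fixedBy P ⁅b, c⁆ = fixedBy P c := by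
  have hd := h.br_mem hb hcx
  have hd1 := h.br_ne hby hc hc1
  have hiff : ∀ {D : P}, D ∉ L x y → (⁅b, c⁆ • D = D ↔ c • D = D) :=
    fun hD => h.br_fix_iff hxy hb hby hc hcx hD
  have hkd := h.card_fix x _ hd hd1
  have hkc := h.card_fix y c hc hc1
  have hl := h.card_line x y hxy
  have hle := h.le_k
  have hcy := h.fix y c hc
  by_cases hsub : fixedBy P c ⊆ L x y
  · have hsub' : fixedBy P ⁅b, c⁆ ⊆ L x y := by
      intro D hD
      by_contra hDl
      exact hDl (hsub ((hiff hDl).1 hD))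
    rw [Set.eq_of_subset_of_ncard_le hsub (by omega) (Set.toFinite _),
      Set.eq_of_subset_of_ncard_le hsub' (by omega) (Set.toFinite _)]
  · obtain ⟨D, hDc, hDl⟩ := Set.not_subset.1 hsub
    have hDd : ⁅b, c⁆ • D = D := (hiff hDl).2 hDc
    refine Set.eq_of_subset_of_ncard_le ?_ (by omega) (Set.toFinite _)
    intro z hz
    rw [mem_fixedBy] at hz
    by_cases hzl : z ∈ L x y
    swap
    · exact (hiff hzl).1 hz
    by_cases hzx : z = x
    · rw [hzx]; exact hcx
    by_cases hzy : z = y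
    · rw [hzy]; exact hcy
    have hzD : z ≠ D := fun e => hDl (e ▸ hzl)
    have key : ∀ u ∈ L z D, u ∈ L x y → u = z := by
      intro u hu hul
      by_contra hne
      have e1 := h.line z D u z hzD hu (h.left _ _ hzD) hne
      have e2 := h.line x y u z hxy hul hzl hne
      apply hDl
      rw [← e2, e1]
      exact h.right _ _ hzD
    have hxn : x ∉ L z D := fun e => hzx (key x e (h.left _ _ hxy)).symm
    have hyn : y ∉ L z D := fun e => hzy (key y e (h.right _ _ hxy)).symm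
    have hfix : ∀ u ∈ L z D, ⁅b, c⁆ • u = u := fun u hu => h.fix_of_two hd hzD hxn hz hDd hu
    obtain ⟨u, hu, huz, huD⟩ := h.exists_third hzD z D
    have hcu : c • u = u := (hiff fun e => huz (key u hu e)).1 (hfix u hu)
    have e3 := h.line z D u D hzD hu (h.right _ _ hzD) huD
    refine h.fix_of_two hc huD (by rw [e3]; exact hyn) hcu hDc ?_
    rw [e3]
    exact h.left _ _ hzD

end fin

end Sys

end Cfsg.Agent.H432.Lin
end

-- part: H432/LinAb
section
/-!
# Linear spaces with central collineations: the groups `A x` are abelian (S3706, S3705)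
-/

set_option autoImplicit false

namespace Cfsg.Agent.H432.Lin

open MulAction
open scoped commutatorElement

variable {G P : Type*} [Group G] [MulAction G P]

namespace Sys

variable {A : P → Subgroup G} {L : P → P → Set P} {q k : ℕ} (h : Sys A L q k)
include h

section fin

variable [Finite P]

/-- if `c ∈ A y` fixes `x` and `D`, `x, y, D` not collinear, then `c` fixes the line `y D` pointwise -/
theorem fix_line_aux {x y D : P} (hxy : x ≠ y) (hD : D ∉ L x y) {c : G} (hc : c ∈ A y) (hcx : c • x = x)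
    (hcD : c • D = D) {w : P} (hw : w ∈ L y D) : c • w = w := by
  by_cases hc1 : c = 1
  · rw [hc1, one_smul]
  obtain ⟨b, hb, hby⟩ := h.exists_move hxy
  have hF := h.fixed_br hxy hb hby hc hc1 hcx
  have hd := h.br_mem hb hcx
  have hyD : y ≠ D := fun e => hD (e ▸ h.right _ _ hxy)
  have hx : x ∉ L y D := by
    intro e
    have := h.col hyD hxy.symm e
    rw [h.symm hxy] at this
    exact hD this
  have h1 : ⁅b, c⁆ • y = y := by
    have : y ∈ fixedBy P ⁅b, c⁆ := hF ▸ h.fix y c hc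
    exact this
  have h2 : ⁅b, c⁆ • D = D := by
    have : D ∈ fixedBy P ⁅b, c⁆ := hF ▸ hcD
    exact this
  have h3 : ⁅b, c⁆ • w = w := h.fix_of_two hd hyD hx h1 h2 hw
  have : w ∈ fixedBy P c := hF ▸ h3
  exact this

/-- an element of `A y` fixing `x` fixes the line `y x` pointwise -/
theorem fix_line {x y : P} (hxy : y ≠ x) {c : G} (hc : c ∈ A y) (hcx : c • x = x) {w : P}
    (hw : w ∈ L y x) : c • w = w := by
  by_cases hc1 : c = 1
  · rw [hc1, one_smul]
  by_cases hsub : fixedBy P c ⊆ L y x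
  · have h1 := h.card_fix y c hc hc1
    have h2 := h.card_line y x hxy
    have h3 := h.le_k
    have := Set.eq_of_subset_of_ncard_le hsub (by omega) (Set.toFinite _)
    rw [← this] at hw
    exact hw
  · obtain ⟨D, hDc, hDl⟩ := Set.not_subset.1 hsub
    have hyD : D ≠ y := fun e => hDl (by rw [e]; exact h.left _ _ hxy)
    refine h.fix_line_aux (x := D) (y := y) (D := x) hyD ?_ hc hDc hcx hw
    intro e
    rw [h.symm hyD.symm] at e
    exact hDl (h.col hyD.symm hxy e)

/-- for `d ∈ A x` fixing `y` there is `c ∈ A y` with the same fixed points -/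
theorem exists_same {x y : P} (hxy : x ≠ y) {d : G} (hd : d ∈ A x) (hd1 : d ≠ 1) (hdy : d • y = y) :
    ∃ c ∈ A y, c ≠ 1 ∧ fixedBy P c = fixedBy P d := by
  obtain ⟨b, hb, hbx⟩ := h.exists_move hxy.symm
  exact ⟨⁅b, d⁆, h.br_mem hb hdy, h.br_ne hbx hd hd1, h.fixed_br hxy.symm hb hbx hd hd1 hdy⟩

end fin

/-- the subgroup of elements of `A x` fixing `y` -/
def _root_.Cfsg.Agent.H432.Lin.T (A : P → Subgroup G) (x y : P) : Subgroup G := A x ⊓ stabilizer G y

omit h in
theorem _root_.Cfsg.Agent.H432.Lin.mem_T {A : P → Subgroup G} {x y : P} {a : G} :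
    a ∈ T A x y ↔ a ∈ A x ∧ a • y = y := Iff.rfl

theorem conj_T (g : G) {x y : P} {a : G} (ha : a ∈ T A x y) : g * a * g⁻¹ ∈ T A (g • x) (g • y) := by
  rw [mem_T] at *
  refine ⟨h.conj g x a ha.1, ?_⟩
  rw [mul_smul, mul_smul, inv_smul_smul, ha.2]

section fin2

variable [Finite G] (h2 : IsMultiplyPretransitive G P 2)

omit h [Finite G] in
include h2 in
theorem exists_pair {x y x' y' : P} (hxy : x ≠ y) (hxy' : x' ≠ y') : ∃ g : G, g • x = x' ∧ g • y = y' := by
  rw [is_two_pretransitive_iff] at h2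
  exact h2 hxy hxy'

include h2 in
theorem card_T_le {x y x' y' : P} (hxy : x ≠ y) (hxy' : x' ≠ y') :
    Nat.card (T A x y) ≤ Nat.card (T A x' y') := by
  obtain ⟨g, hg1, hg2⟩ := exists_pair h2 hxy hxy'
  refine Nat.card_le_card_of_injective (fun a : T A x y => (⟨g * a.1 * g⁻¹, ?_⟩ : T A x' y')) ?_
  · have := h.conj_T g a.2
    rwa [hg1, hg2] at this
  · intro a b hab
    have := congrArg Subtype.val hab
    simp only [mul_left_inj, mul_right_inj] at this
    exact Subtype.ext this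

include h2 in
theorem card_T {x y x' y' : P} (hxy : x ≠ y) (hxy' : x' ≠ y') :
    Nat.card (T A x y) = Nat.card (T A x' y') :=
  le_antisymm (h.card_T_le h2 hxy hxy') (h.card_T_le h2 hxy' hxy)

include h2 in
theorem T_eq_of_le {x y z : P} (hxy : x ≠ y) (hxz : x ≠ z) (hle : T A x y ≤ T A x z) : T A x y = T A x z :=
  Subgroup.eq_of_le_of_card_ge hle (h.card_T h2 hxz hxy).le

variable [Finite P]

/-- elements of `A x` fixing all the fixed points of `a` -/
def _root_.Cfsg.Agent.H432.Lin.Q (A : P → Subgroup G) (x : P) (a : G) : Subgroup G :=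
  A x ⊓ fixingSubgroup G (fixedBy P a)

omit h in
omit [Finite G] [Finite P] in
theorem _root_.Cfsg.Agent.H432.Lin.mem_Q {A : P → Subgroup G} {x : P} {a e : G} :
    e ∈ Q A x a ↔ e ∈ A x ∧ ∀ z : P, a • z = z → e • z = z := by
  unfold Q
  rw [Subgroup.mem_inf, mem_fixingSubgroup_iff]
  rfl

omit [Finite G] in
/-- the nontrivial elements of `Q x a` have the same fixed points as `a` -/
theorem fixed_Q {x : P} {a e : G} (ha : a ∈ A x) (ha1 : a ≠ 1) (he : e ∈ Q A x a) (he1 : e ≠ 1) :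
    fixedBy P e = fixedBy P a := by
  rw [mem_Q] at he
  have h1 := h.card_fix x a ha ha1
  have h2 := h.card_fix x e he.1 he1
  have h3 : fixedBy P a ⊆ fixedBy P e := fun z hz => he.2 z hz
  exact (Set.eq_of_subset_of_ncard_le h3 (by omega) (Set.toFinite _)).symm

/-- `Q x a` has at least `q` elements -/
theorem le_card_Q {x : P} {a : G} (ha : a ∈ A x) (ha1 : a ≠ 1) : q ≤ Nat.card (Q A x a) := by
  -- a further fixed point
  have hk := h.card_fix x a ha ha1
  have : 1 < (fixedBy P a).ncard := by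
    have := h.le_k; have := h.two_le; omega
  obtain ⟨y, hy, hyx⟩ := Set.exists_ne_of_one_lt_ncard this x
  obtain ⟨c, hc, hc1, hF⟩ := h.exists_same hyx.symm ha ha1 hy
  have hcx : c • x = x := by
    have : x ∈ fixedBy P c := hF ▸ h.fix x a ha
    exact this
  -- the map
  have hmem : ∀ b : A x, ⁅b.1, c⁆ ∈ Q A x a := by
    intro b
    rw [mem_Q]
    refine ⟨h.br_mem b.2 hcx, fun z hz => ?_⟩
    by_cases hby : b.1 • y = y
    · have : ⁅b.1, c⁆ = 1 := by
        rw [commutatorElement_eq_one_iff_mul_comm]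
        exact h.comm hyx.symm b.2 hby hc hcx
      rw [this, one_smul]
    · have := h.fixed_br hyx.symm b.2 hby hc hc1 hcx
      have hz' : z ∈ fixedBy P ⁅b.1, c⁆ := by
        rw [this, hF]; exact hz
      exact hz'
  -- choose an element of `A x` for each point of the line
  have hch : ∀ z : (L x y \ {x} : Set P), ∃ b ∈ A x, b • y = z.1 := fun z =>
    h.trans x y z.1 hyx.symm z.2.1 z.2.2
  choose f hf hfy using hch
  have hcard : Nat.card (L x y \ {x} : Set P) = q := by
    have h1 : (L x y \ {x}).ncard = q := by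
      rw [Set.ncard_sdiff_singleton_of_mem (h.left _ _ hyx.symm), h.card_line _ _ hyx.symm]
      rfl
    rw [← h1]
    rfl
  rw [← hcard]
  refine Nat.card_le_card_of_injective
    (fun z : (L x y \ {x} : Set P) => (⟨⁅f z, c⁆, hmem ⟨f z, hf z⟩⟩ : Q A x a)) ?_
  intro z w hzw
  have e := congrArg Subtype.val hzw
  simp only [commutatorElement_def, mul_left_inj] at e
  have h1 : f z * c * (f z)⁻¹ ∈ A z.1 := by
    have := h.conj (f z) y c hc
    rwa [hfy] at this
  have h2 : f z * c * (f z)⁻¹ ∈ A w.1 := by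
    have := h.conj (f w) y c hc
    rwa [hfy, ← e] at this
  by_contra hne
  have h3 := h.ti _ _ _ (fun e => hne (Subtype.ext e)) h1 h2
  apply hc1
  have : c = (f z)⁻¹ * (f z * c * (f z)⁻¹) * f z := by group
  rw [this, h3]
  group

/-- `Q x a` is transitive on `L x z \ {x}` if `a` does not fix `z` -/
theorem Q_trans {x : P} {a : G} (ha : a ∈ A x) (ha1 : a ≠ 1) {z : P} (hxz : x ≠ z) (hz : a • z ≠ z) {w : P}
    (hw : w ∈ L x z) (hwx : w ≠ x) : ∃ e ∈ Q A x a, e • z = w := by
  have hcard : Nat.card (L x z \ {x} : Set P) = q := by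
    have h1 : (L x z \ {x}).ncard = q := by
      rw [Set.ncard_sdiff_singleton_of_mem (h.left _ _ hxz), h.card_line _ _ hxz]
      rfl
    rw [← h1]
    rfl
  have hAx : ∀ e ∈ Q A x a, e ∈ A x := fun e he => (mem_Q.1 he).1
  have hinj : Function.Injective (fun e : Q A x a =>
      (⟨e.1 • z, h.stay x z e.1 hxz (hAx _ e.2), h.smul_ne hxz (hAx _ e.2)⟩ : (L x z \ {x} : Set P))) := by
    intro e f hef
    have e1 : e.1 • z = f.1 • z := congrArg Subtype.val hef
    by_contra hne
    have hne' : f.1⁻¹ * e.1 ≠ 1 := by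
      intro e'
      apply hne
      apply Subtype.ext
      exact (inv_mul_eq_one.1 e').symm
    have hm : f.1⁻¹ * e.1 ∈ Q A x a := mul_mem (inv_mem f.2) e.2
    have h3 := h.fixed_Q ha ha1 hm hne'
    apply hz
    have : z ∈ fixedBy P (f.1⁻¹ * e.1) := by
      rw [mem_fixedBy, mul_smul, e1, inv_smul_smul]
    rw [h3] at this
    exact this
  have hbij : Function.Bijective (fun e : Q A x a =>
      (⟨e.1 • z, h.stay x z e.1 hxz (hAx _ e.2), h.smul_ne hxz (hAx _ e.2)⟩ : (L x z \ {x} : Set P))) := by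
    refine (Nat.bijective_iff_injective_and_card _).2 ⟨hinj, ?_⟩
    refine le_antisymm ?_ ?_
    · exact Nat.card_le_card_of_injective _ hinj
    · rw [hcard]
      exact h.le_card_Q ha ha1
  obtain ⟨e, he⟩ := hbij.2 ⟨w, hw, hwx⟩
  exact ⟨e.1, e.2, congrArg Subtype.val he⟩

omit [Finite G] [Finite P] in
/-- a point not fixed by `a` -/
theorem exists_not_fixed {x : P} {a : G} (ha : a ∈ A x) (ha1 : a ≠ 1) : ∃ z : P, a • z ≠ z := by
  by_contra hcon
  push Not at hcon
  have h1 := h.card_fix x a ha ha1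
  have h2 : fixedBy P a = Set.univ := by
    ext z; simp [mem_fixedBy, hcon z]
  rw [h2, Set.ncard_univ] at h1
  have := h.k_lt
  omega

include h2 in
/-- `T x y` is abelian -/
theorem T_comm {x y : P} (hxy : x ≠ y) {a b : G} (ha : a ∈ T A x y) (hb : b ∈ T A x y) : a * b = b * a := by
  obtain ⟨g, hg, hgy⟩ := h.exists_move hxy
  -- the map `c ↦ ⁅g, c⁆`
  have hmem : ∀ c : T A y x, ⁅g, c.1⁆ ∈ T A x y := by
    intro c
    by_cases hc1 : c.1 = 1
    · rw [hc1, commutatorElement_one_right]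
      exact one_mem _
    rw [mem_T]
    refine ⟨h.br_mem hg c.2.2, ?_⟩
    have := h.fixed_br hxy hg hgy c.2.1 hc1 c.2.2
    have h3 : y ∈ fixedBy P ⁅g, c.1⁆ := this ▸ h.fix y c.1 c.2.1
    exact h3
  have hinj : Function.Injective (fun c : T A y x => (⟨⁅g, c.1⁆, hmem c⟩ : T A x y)) := by
    intro c c' e
    have e1 : ⁅g, c.1⁆ = ⁅g, c'.1⁆ := congrArg Subtype.val e
    have e2 : g * (c'.1⁻¹ * c.1) * g⁻¹ = c'.1⁻¹ * c.1 := by
      rw [commutatorElement_def, commutatorElement_def] at e1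
      have e3 : g * c.1 * g⁻¹ = g * c'.1 * g⁻¹ * c'.1⁻¹ * c.1 := by
        rw [← e1]; group
      calc g * (c'.1⁻¹ * c.1) * g⁻¹ = (g * c'.1 * g⁻¹)⁻¹ * (g * c.1 * g⁻¹) := by group
        _ = c'.1⁻¹ * c.1 := by rw [e3]; group
    have h3 : c'.1⁻¹ * c.1 ∈ A y := mul_mem (inv_mem c'.2.1) c.2.1
    have h4 : c'.1⁻¹ * c.1 ∈ A (g • y) := by
      rw [← e2]
      exact h.conj g y _ h3
    have h5 := h.ti _ _ _ hgy h4 h3
    exact Subtype.ext (inv_mul_eq_one.1 h5).symm
  have hbij := (Nat.bijective_iff_injective_and_card _).2 ⟨hinj, h.card_T h2 hxy.symm hxy⟩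
  obtain ⟨c, hc⟩ := hbij.2 ⟨b, hb⟩
  have hb' : b = ⁅g, c.1⁆ := (congrArg Subtype.val hc).symm
  -- `a` commutes with `c` and `g c g⁻¹`
  have hac : Commute a c.1 := h.comm hxy ha.1 ha.2 c.2.1 c.2.2
  have hagy : a • (g • y) = g • y := h.fix_line hxy ha.1 ha.2 (h.stay _ _ _ hxy hg)
  have hgx : g • x = x := h.fix x g hg
  have hxgy : x ≠ g • y := (h.smul_ne hxy hg).symm
  have h6 : g * c.1 * g⁻¹ ∈ A (g • y) := h.conj g y c.1 c.2.1
  have h7 : (g * c.1 * g⁻¹) • x = x := by
    rw [mul_smul, mul_smul, h.fix x g⁻¹ (inv_mem hg), c.2.2, hgx]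
  have h8 : Commute a (g * c.1 * g⁻¹) := h.comm hxgy ha.1 hagy h6 h7
  have h9 : Commute a ⁅g, c.1⁆ := by
    rw [commutatorElement_def]
    exact h8.mul_right hac.inv_right
  rw [hb']
  exact h9

include h2 in
/-- `A x` is abelian -/
theorem abelian {x : P} {a b : G} (ha : a ∈ A x) (hb : b ∈ A x) : a * b = b * a := by
  by_cases ha1 : a = 1
  · rw [ha1, one_mul, mul_one]
  -- `a ∈ T x y`
  have hk := h.card_fix x a ha ha1
  have : 1 < (fixedBy P a).ncard := by
    have := h.le_k; have := h.two_le; omega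
  obtain ⟨y, hy, hyx⟩ := Set.exists_ne_of_one_lt_ncard this x
  obtain ⟨z, hz⟩ := h.exists_not_fixed ha ha1
  have hxz : x ≠ z := by
    intro e
    exact hz (e ▸ h.fix x a ha)
  obtain ⟨e, he, hez⟩ := h.Q_trans ha ha1 hxz hz (h.stay x z b hxz hb) (h.smul_ne hxz hb)
  have heA := (mem_Q.1 he).1
  -- `t = e⁻¹ b ∈ T x z`
  have ht : e⁻¹ * b ∈ T A x z := by
    rw [mem_T]
    refine ⟨mul_mem (inv_mem heA) hb, ?_⟩
    rw [mul_smul, ← hez, inv_smul_smul]
  have hae : Commute a e := by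
    refine h.T_comm h2 hyx.symm (mem_T.2 ⟨ha, hy⟩) (mem_T.2 ⟨heA, (mem_Q.1 he).2 y hy⟩)
  -- the commutator of `a` and `t` is trivial
  set t := e⁻¹ * b with htdef
  have hat : Commute a t := by
    have hmem : ⁅a, t⁆ ∈ A x := by
      rw [commutatorElement_def]
      exact mul_mem (mul_mem (mul_mem ha ht.1) (inv_mem ha)) (inv_mem ht.1)
    by_contra hne
    have hne1 : ⁅a, t⁆ ≠ 1 := by
      rw [Ne, commutatorElement_eq_one_iff_mul_comm]
      exact hne
    -- fixes all fixed points of `a`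
    have hQ : ⁅a, t⁆ ∈ Q A x a := by
      rw [mem_Q]
      refine ⟨hmem, fun w hw => ?_⟩
      by_cases hwx : w = x
      · rw [hwx]
        exact h.fix x _ hmem
      have h3 : a⁻¹ • (t⁻¹ • w) = t⁻¹ • w := by
        have hst : t⁻¹ • w ∈ L x w := h.stay x w t⁻¹ (Ne.symm hwx) (inv_mem ht.1)
        refine h.fix_line (Ne.symm hwx) (inv_mem ha) ?_ hst
        rw [inv_smul_eq_iff, hw]
      rw [commutatorElement_def, mul_smul, mul_smul, mul_smul, h3, smul_inv_smul, hw]
    have hF := h.fixed_Q ha ha1 hQ hne1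
    apply hz
    have : z ∈ fixedBy P ⁅a, t⁆ := by
      rw [mem_fixedBy, commutatorElement_def, mul_smul, mul_smul, mul_smul]
      have h3 : t⁻¹ • z = z := by rw [inv_smul_eq_iff, ht.2]
      have h4 : t • (a⁻¹ • z) = a⁻¹ • z :=
        h.fix_line hxz ht.1 ht.2 (h.stay _ _ _ hxz (inv_mem ha))
      rw [h3, h4, smul_inv_smul]
    rw [hF] at this
    exact this
  have hbe : b = e * t := by rw [htdef]; group
  rw [hbe]
  exact hae.mul_right hat

end fin2

end Sys

end Cfsg.Agent.H432.Lin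
end

-- part: H432/SymLin
section
/-!
# The linear space of blocks (S3706, S3705)

`A₀` as in `Des.exists_axis`; `Ax A₀ p` the conjugates.  The dual lines `Ln p q = {s | blk p ∩ blk q ⊆ blk s}` and the
subgroups `Ax A₀ p` form a `Lin.Sys`.
-/

set_option autoImplicit false
set_option linter.unusedSectionVars false

namespace Cfsg.Agent.H432.SymDes

open MulAction

variable {G Ω : Type*} [Group G] [MulAction G Ω]

/-- the dual line through two blocks -/
def Ln (H : Subgroup G) (B : Set Ω) (p q : G ⧸ H) : Set (G ⧸ H) := {s | blk H B p ∩ blk H B q ⊆ blk H B s}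

/-- the conjugates of `A₀` -/
noncomputable def Ax {H : Subgroup G} (A₀ : Subgroup G) (p : G ⧸ H) : Subgroup G := A₀.map (MulAut.conj p.out).toMonoidHom

/-- `A₀` is normalized by `H`, fixes `B` pointwise, the other points are fixed only by `1`. -/
structure Axis (H : Subgroup G) (B : Set Ω) (A₀ : Subgroup G) : Prop extends Des H B where
  ne : ∃ a ∈ A₀, a ≠ 1
  le : A₀ ≤ H
  norm : ∀ g ∈ H, ∀ a ∈ A₀, g * a * g⁻¹ ∈ A₀
  fixB : ∀ a ∈ A₀, ∀ b ∈ B, a • b = b
  free : ∀ a ∈ A₀, a ≠ 1 → ∀ x, x ∉ B → a • x ≠ x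

namespace Axis

variable {H : Subgroup G} {B : Set Ω} {A₀ : Subgroup G} (D : Axis H B A₀)
include D

theorem mem_Ax (g a : G) : a ∈ Ax A₀ (g : G ⧸ H) ↔ g⁻¹ * a * g ∈ A₀ := by
  have h1 : (((g : G) : G ⧸ H).out)⁻¹ * g ∈ H := by
    rw [← QuotientGroup.eq, QuotientGroup.out_eq']
  unfold Ax
  rw [Subgroup.mem_map]
  generalize ((g : G) : G ⧸ H).out = u at h1 ⊢
  constructor
  · rintro ⟨b, hb, rfl⟩
    have h2 := D.norm _ (inv_mem h1) b hb
    have e : g⁻¹ * (MulAut.conj u).toMonoidHom b * g = (u⁻¹ * g)⁻¹ * b * (u⁻¹ * g)⁻¹⁻¹ := by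
      simp only [MulEquiv.coe_toMonoidHom, MulAut.conj_apply]
      group
    rw [e]
    exact h2
  · intro ha
    refine ⟨u⁻¹ * a * u, ?_, ?_⟩
    · have h2 := D.norm _ h1 _ ha
      have e : u⁻¹ * a * u = u⁻¹ * g * (g⁻¹ * a * g) * (u⁻¹ * g)⁻¹ := by group
      rw [e]
      exact h2
    · simp only [MulEquiv.coe_toMonoidHom, MulAut.conj_apply]
      group

theorem conj (g : G) (p : G ⧸ H) (a : G) (ha : a ∈ Ax A₀ p) : g * a * g⁻¹ ∈ Ax A₀ (g • p) := by
  induction p using QuotientGroup.induction_on with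
  | H x =>
    rw [show g • ((x : G) : G ⧸ H) = ((g * x : G) : G ⧸ H) from rfl, D.mem_Ax]
    rw [D.mem_Ax] at ha
    have e : (g * x)⁻¹ * (g * a * g⁻¹) * (g * x) = x⁻¹ * a * x := by group
    rw [e]
    exact ha

theorem fix (p : G ⧸ H) (a : G) (ha : a ∈ Ax A₀ p) : a • p = p := by
  induction p using QuotientGroup.induction_on with
  | H x =>
    rw [D.mem_Ax] at ha
    rw [show a • ((x : G) : G ⧸ H) = ((a * x : G) : G ⧸ H) from rfl, QuotientGroup.eq]
    have := inv_mem (D.le ha)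
    have e : (a * x)⁻¹ * x = (x⁻¹ * a * x)⁻¹ := by group
    rw [e]
    exact this

theorem fix_pt (p : G ⧸ H) (a : G) (ha : a ∈ Ax A₀ p) {x : Ω} (hx : x ∈ blk H B p) : a • x = x := by
  induction p using QuotientGroup.induction_on with
  | H g =>
    rw [D.mem_Ax] at ha
    rw [D.mem_blk] at hx
    have := D.fixB _ ha _ hx
    rw [mul_smul, mul_smul, smul_inv_smul, inv_smul_eq_iff, smul_inv_smul] at this
    exact this

theorem free_pt (p : G ⧸ H) (a : G) (ha : a ∈ Ax A₀ p) (ha1 : a ≠ 1) {x : Ω} (hx : x ∉ blk H B p) :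
    a • x ≠ x := by
  induction p using QuotientGroup.induction_on with
  | H g =>
    rw [D.mem_Ax] at ha
    rw [D.mem_blk] at hx
    intro e
    have h1 : g⁻¹ * a * g ≠ 1 := by
      intro e
      apply ha1
      have : a = g * (g⁻¹ * a * g) * g⁻¹ := by group
      rw [this, e]; group
    apply D.free _ ha h1 _ hx
    rw [mul_smul, mul_smul, smul_inv_smul, e]

variable [Finite G] [Finite Ω]

theorem exists_not_mem {p q : G ⧸ H} (hpq : p ≠ q) : ∃ x ∈ blk H B q, x ∉ blk H B p := by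
  obtain ⟨l, hlk, h1l, hcount, hr, hl, hint, -⟩ := D.ryser
  by_contra hcon
  push Not at hcon
  have h1 := hint p q hpq
  have h2 : blk H B p ∩ blk H B q = blk H B q := Set.inter_eq_right.2 hcon
  rw [h2, D.card_blk] at h1
  omega

theorem ti (p q : G ⧸ H) (a : G) (hpq : p ≠ q) (hp : a ∈ Ax A₀ p) (hq : a ∈ Ax A₀ q) : a = 1 := by
  by_contra ha1
  obtain ⟨x, hx, hxp⟩ := D.exists_not_mem hpq
  exact D.free_pt p a hp ha1 hxp (D.fix_pt q a hq hx)

theorem line {p q s t : G ⧸ H} (hpq : p ≠ q) (hs : s ∈ Ln H B p q) (ht : t ∈ Ln H B p q) (hst : s ≠ t) :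
    Ln H B s t = Ln H B p q := by
  obtain ⟨l, hlk, h1l, hcount, hr, hl, hint, -⟩ := D.ryser
  have h1 : blk H B p ∩ blk H B q ⊆ blk H B s ∩ blk H B t := Set.subset_inter hs ht
  have h2 : blk H B p ∩ blk H B q = blk H B s ∩ blk H B t :=
    Set.eq_of_subset_of_ncard_le h1 (by rw [hint s t hst, hint p q hpq]) (Set.toFinite _)
  unfold Ln
  rw [h2]

theorem sm (g : G) {p q s : G ⧸ H} (hs : s ∈ Ln H B p q) : g • s ∈ Ln H B (g • p) (g • q) := by
  intro x hx
  have h1 : g⁻¹ • x ∈ blk H B p ∩ blk H B q := by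
    constructor
    · rw [← D.smul_mem_blk g, smul_inv_smul]; exact hx.1
    · rw [← D.smul_mem_blk g, smul_inv_smul]; exact hx.2
  have h2 := hs h1
  rw [← D.smul_mem_blk g, smul_inv_smul] at h2
  exact h2

theorem stay (p q : G ⧸ H) (a : G) (ha : a ∈ Ax A₀ p) : a • q ∈ Ln H B p q := by
  intro x hx
  have h1 := (D.smul_mem_blk a x q).2 hx.2
  rwa [D.fix_pt p a ha hx.1] at h1

theorem card_fix (p : G ⧸ H) (a : G) (ha : a ∈ Ax A₀ p) (ha1 : a ≠ 1) :
    (fixedBy (G ⧸ H) a).ncard = B.ncard := by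
  obtain ⟨l, hlk, h1l, hcount, hr, hl, hint, hfix⟩ := D.ryser
  rw [hfix, ← D.card_blk p]
  congr 1
  ext x
  constructor
  · intro hx
    by_contra hxp
    exact D.free_pt p a ha ha1 hxp hx
  · intro hx
    exact D.fix_pt p a ha hx

theorem card_Ax (p : G ⧸ H) : Nat.card (Ax A₀ p) = Nat.card A₀ := by
  unfold Ax
  exact Nat.card_congr (A₀.equivMapOfInjective _ (MulAut.conj p.out).injective).symm.toEquiv

/-- stabilizers of blocks in `Ax A₀ p` -/
theorem card_T {p q p' q' : G ⧸ H} (hpq : p ≠ q) (hpq' : p' ≠ q') :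
    Nat.card (Lin.T (Ax A₀) p q) = Nat.card (Lin.T (Ax A₀) p' q') := by
  have h2 := D.two_trans
  rw [is_two_pretransitive_iff] at h2
  have key : ∀ {p q p' q' : G ⧸ H}, p ≠ q → p' ≠ q' →
      Nat.card (Lin.T (Ax A₀) p q) ≤ Nat.card (Lin.T (Ax A₀) p' q') := by
    intro p q p' q' hpq hpq'
    obtain ⟨g, hg1, hg2⟩ := h2 hpq hpq'
    refine Nat.card_le_card_of_injective
      (fun a : Lin.T (Ax A₀) p q => (⟨g * a.1 * g⁻¹, ?_⟩ : Lin.T (Ax A₀) p' q')) ?_
    · refine Lin.mem_T.2 ⟨?_, ?_⟩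
      · have := D.conj g p a.1 a.2.1
        rwa [hg1] at this
      · rw [← hg2, mul_smul, mul_smul, inv_smul_smul]
        congr 1
        exact a.2.2
    · intro a b hab
      have := congrArg Subtype.val hab
      simp only [mul_left_inj, mul_right_inj] at this
      exact Subtype.ext this
  exact le_antisymm (key hpq hpq') (key hpq' hpq)

/-- the orbits of `Ax A₀ p` -/
theorem card_orbit (p q : G ⧸ H) :
    Nat.card (Lin.T (Ax A₀) p q) * ((fun a : Ax A₀ p => a.1 • q) '' Set.univ).ncard = Nat.card A₀ := by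
  have h1 := Nat.card_congr (orbitProdStabilizerEquivGroup (Ax A₀ p) q)
  rw [Nat.card_prod, D.card_Ax] at h1
  rw [← h1, mul_comm]
  congr 1
  · rw [Set.image_univ]; rfl
  · refine Nat.card_congr ⟨fun a => ⟨⟨a.1, a.2.1⟩, a.2.2⟩, fun a => ⟨a.1.1, a.1.2, a.2⟩, fun a => rfl, fun a => rfl⟩

/-- double counting -/
theorem double {p q₀ : G ⧸ H} (hpq : p ≠ q₀) :
    Nat.card A₀ + (Nat.card (G ⧸ H) - 1) * Nat.card (Lin.T (Ax A₀) p q₀) =
      Nat.card (G ⧸ H) + (Nat.card A₀ - 1) * B.ncard := by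
  classical
  have : Fintype (G ⧸ H) := Fintype.ofFinite _
  have : Fintype (Ax A₀ p) := Fintype.ofFinite _
  have h1 : ∑ a : Ax A₀ p, ∑ q : G ⧸ H, (if a.1 • q = q then 1 else 0) =
      ∑ q : G ⧸ H, ∑ a : Ax A₀ p, (if a.1 • q = q then 1 else 0) := Finset.sum_comm
  have h2 : ∀ a : Ax A₀ p, ∑ q : G ⧸ H, (if a.1 • q = q then 1 else 0) = (fixedBy (G ⧸ H) a.1).ncard := by
    intro a
    rw [Finset.sum_boole, Set.ncard_eq_toFinset_card']
    simp only [Nat.cast_id]
    congr 1
    ext q; simp [mem_fixedBy]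
  have h3 : ∀ q : G ⧸ H, ∑ a : Ax A₀ p, (if a.1 • q = q then 1 else 0) = Nat.card (Lin.T (Ax A₀) p q) := by
    intro q
    rw [Finset.sum_boole]
    simp only [Nat.cast_id]
    rw [← Fintype.card_subtype, ← Nat.card_eq_fintype_card]
    exact Nat.card_congr ⟨fun a => ⟨a.1.1, a.1.2, a.2⟩, fun a => ⟨⟨a.1, a.2.1⟩, a.2.2⟩, fun a => rfl, fun a => rfl⟩
  simp_rw [h2, h3] at h1
  rw [← Finset.add_sum_erase _ _ (Finset.mem_univ (1 : Ax A₀ p)),
    ← Finset.add_sum_erase _ _ (Finset.mem_univ p)] at h1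
  have h4 : ∀ a ∈ Finset.univ.erase (1 : Ax A₀ p), (fixedBy (G ⧸ H) a.1).ncard = B.ncard := by
    intro a ha
    exact D.card_fix p a.1 a.2 (fun e => (Finset.ne_of_mem_erase ha) (Subtype.ext e))
  rw [Finset.sum_congr rfl h4, Finset.sum_const, Finset.card_erase_of_mem (Finset.mem_univ _), Finset.card_univ,
    smul_eq_mul] at h1
  have h5 : (fixedBy (G ⧸ H) ((1 : Ax A₀ p) : G)).ncard = Nat.card (G ⧸ H) := by
    rw [← Set.ncard_univ]
    congr 1
    ext q; simp
  have h6 : Nat.card (Lin.T (Ax A₀) p p) = Nat.card (Ax A₀ p) := by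
    congr 1
    have : Lin.T (Ax A₀) p p = Ax A₀ p := by
      ext a
      rw [Lin.mem_T]
      exact ⟨fun h => h.1, fun h => ⟨h, D.fix p a h⟩⟩
    rw [this]
  have h7 : ∀ q ∈ Finset.univ.erase p, Nat.card (Lin.T (Ax A₀) p q) = Nat.card (Lin.T (Ax A₀) p q₀) := by
    intro q hq
    exact D.card_T (Finset.ne_of_mem_erase hq).symm hpq
  rw [h5, h6, Finset.sum_congr rfl h7, Finset.sum_const, Finset.card_erase_of_mem (Finset.mem_univ _),
    Finset.card_univ, smul_eq_mul, ← Nat.card_eq_fintype_card, ← Nat.card_eq_fintype_card, D.card_Ax] at h1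
  exact h1.symm

end Axis

end Cfsg.Agent.H432.SymDes
end

-- part: H432/SymSys
section
/-!
# The linear space of blocks, end (S3706, S3705)

`Axis.exists_sys`: the dual lines and the groups `Ax A₀ p` form a `Lin.Sys`.  `Axis.abelian`: the groups `Ax A₀ p` are
abelian.
-/

set_option autoImplicit false
set_option linter.unusedSectionVars false

namespace Cfsg.Agent.H432.SymDes

open MulAction

variable {G Ω : Type*} [Group G] [MulAction G Ω]

theorem arith1 {n k l α s t : ℕ} (hkn : k < n) (hk : 2 ≤ k) (hlk : l < k) (hl : 1 ≤ l) (hα : 2 ≤ α)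
    (h1 : k * k + l = k + n * l) (h2 : α + (n - 1) * s = n + (α - 1) * k) (h3 : s * t = α) :
    2 ≤ s ∧ 2 ≤ t ∧ k * (s - 1) = l * (α - 1) := by
  obtain ⟨n, rfl⟩ : ∃ m, n = m + 1 := ⟨n - 1, by omega⟩
  obtain ⟨α, rfl⟩ : ∃ m, α = m + 1 := ⟨α - 1, by omega⟩
  obtain ⟨k, rfl⟩ : ∃ m, k = m + 1 := ⟨k - 1, by omega⟩
  have hs1 : 1 ≤ s := by
    rcases Nat.eq_zero_or_pos s with h0 | h0
    · subst h0; simp at h3
    · exact h0
  obtain ⟨s, rfl⟩ : ∃ m, s = m + 1 := ⟨s - 1, by omega⟩
  simp only [Nat.add_sub_cancel] at *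
  have e1 : n * s = α * k := by nlinarith
  have e2 : n * l = k * (k + 1) := by nlinarith
  have e3 : (k + 1) * s = l * α := by
    have hk0 : 0 < k := by omega
    apply Nat.eq_of_mul_eq_mul_left hk0
    calc k * ((k + 1) * s) = (k * (k + 1)) * s := by ring
      _ = (n * l) * s := by rw [e2]
      _ = (n * s) * l := by ring
      _ = (α * k) * l := by rw [e1]
      _ = k * (l * α) := by ring
  have hs : 1 ≤ s := by
    rcases Nat.eq_zero_or_pos s with h0 | h0
    · subst h0
      have : 0 < l * α := Nat.mul_pos (by omega) (by omega)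
      omega
    · exact h0
  refine ⟨by omega, ?_, e3⟩
  by_contra ht
  have ht' : t = 1 ∨ t = 0 := by omega
  rcases ht' with rfl | rfl
  · have : s = α := by omega
    subst this
    have : n * s = k * s := by rw [e1, mul_comm]
    have := Nat.eq_of_mul_eq_mul_right (by omega : 0 < s) this
    omega
  · simp at h3

theorem arith2 {k l α s t : ℕ} (hk : 2 ≤ k) (hl : 1 ≤ l) (hs : 2 ≤ s) (ht : 1 ≤ t) (h3 : s * t = α)
    (h4 : k * (s - 1) = l * (α - 1)) (h5 : 2 * t * l ≤ k - 1) : False := by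
  obtain ⟨s, rfl⟩ : ∃ m, s = m + 2 := ⟨s - 2, by omega⟩
  obtain ⟨k, rfl⟩ : ∃ m, k = m + 1 := ⟨k - 1, by omega⟩
  obtain ⟨t, rfl⟩ : ∃ m, t = m + 1 := ⟨t - 1, by omega⟩
  subst h3
  have e1 : s + 2 - 1 = s + 1 := by omega
  have e2 : (s + 2) * (t + 1) - 1 = s * t + s + 2 * t + 1 := by
    have : (s + 2) * (t + 1) = s * t + s + 2 * t + 2 := by ring
    omega
  rw [e1, e2] at h4
  simp only [Nat.add_sub_cancel] at h5
  have h6 : (2 * (t + 1) * l + 1) * (s + 1) ≤ l * (s * t + s + 2 * t + 1) := by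
    rw [← h4]
    exact Nat.mul_le_mul_right _ (by omega)
  nlinarith [Nat.zero_le (l * s * t), Nat.zero_le (l * s), Nat.zero_le (l * t), Nat.zero_le s]

theorem arith3 {n k l m : ℕ} (hlk : l < k) (hkn : k < n) (h1 : k * k + l = k + n * l)
    (hb : m * (k - l) ≤ n - k) : m * l ≤ k - 1 := by
  obtain ⟨j, rfl⟩ : ∃ j, k = l + j := ⟨k - l, by omega⟩
  obtain ⟨i, rfl⟩ : ∃ i, n = l + j + i := ⟨n - (l + j), by omega⟩
  have e1 : l + j - l = j := by omega
  have e2 : l + j + i - (l + j) = i := by omega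
  rw [e1, e2] at hb
  have hj : 0 < j := by omega
  obtain ⟨j, rfl⟩ : ∃ j', j = j' + 1 := ⟨j - 1, by omega⟩
  have e3 : l + (j + 1) - 1 = l + j := by omega
  rw [e3]
  -- `l * i = (l + j) * (j + 1)`
  have e4 : l * i = (l + j) * (j + 1) := by nlinarith
  have e5 : (m * l) * (j + 1) ≤ (l + j) * (j + 1) := by
    calc (m * l) * (j + 1) = (m * (j + 1)) * l := by ring
      _ ≤ i * l := Nat.mul_le_mul_right _ hb
      _ = (l + j) * (j + 1) := by rw [mul_comm, e4]
  exact Nat.le_of_mul_le_mul_right e5 (by omega)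

namespace Axis

variable {H : Subgroup G} {B : Set Ω} {A₀ : Subgroup G} (D : Axis H B A₀) [Finite G] [Finite Ω]
include D

theorem inter_eq {p q s t : G ⧸ H} (hpq : p ≠ q) (hs : s ∈ Ln H B p q) (ht : t ∈ Ln H B p q) (hst : s ≠ t) :
    blk H B s ∩ blk H B t = blk H B p ∩ blk H B q := by
  obtain ⟨l, hlk, h1l, hcount, hr, hl, hint, -⟩ := D.ryser
  have h1 : blk H B p ∩ blk H B q ⊆ blk H B s ∩ blk H B t := Set.subset_inter hs ht
  exact (Set.eq_of_subset_of_ncard_le h1 (by rw [hint s t hst, hint p q hpq]) (Set.toFinite _)).symm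

/-- the blocks of a dual line cover at most `n` points -/
theorem bound {p q : G ⧸ H} (hpq : p ≠ q) {l : ℕ} (hint : ∀ p q : G ⧸ H, p ≠ q → (blk H B p ∩ blk H B q).ncard = l) :
    (Ln H B p q \ {p}).ncard * (B.ncard - l) ≤ Nat.card Ω - B.ncard := by
  classical
  have : Fintype Ω := Fintype.ofFinite Ω
  have : Fintype (G ⧸ H) := Fintype.ofFinite _
  have hp : p ∈ Ln H B p q := fun x hx => hx.1
  have h1 : (Finset.biUnion (Ln H B p q \ {p}).toFinset fun s => (blk H B s \ (blk H B p ∩ blk H B q)).toFinset).card =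
      (Ln H B p q \ {p}).ncard * (B.ncard - l) := by
    rw [Finset.card_biUnion]
    · have : ∀ s ∈ (Ln H B p q \ {p}).toFinset, ((blk H B s \ (blk H B p ∩ blk H B q)).toFinset).card =
          B.ncard - l := by
        intro s hs
        rw [Set.mem_toFinset] at hs
        rw [← Set.ncard_eq_toFinset_card', Set.ncard_sdiff hs.1, D.card_blk, hint p q hpq]
      rw [Finset.sum_congr rfl this, Finset.sum_const, smul_eq_mul, ← Set.ncard_eq_toFinset_card']
    · intro s hs t ht hst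
      rw [Finset.mem_coe, Set.mem_toFinset] at hs ht
      rw [Function.onFun, Finset.disjoint_left]
      intro x hx hx'
      rw [Set.mem_toFinset] at hx hx'
      apply hx.2
      rw [← D.inter_eq hpq hs.1 ht.1 hst]
      exact ⟨hx.1, hx'.1⟩
  have h2 : (Finset.biUnion (Ln H B p q \ {p}).toFinset fun s => (blk H B s \ (blk H B p ∩ blk H B q)).toFinset).card ≤
      ((blk H B p)ᶜ).ncard := by
    rw [Set.ncard_eq_toFinset_card']
    refine Finset.card_le_card ?_
    intro x hx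
    rw [Finset.mem_biUnion] at hx
    obtain ⟨s, hs, hx⟩ := hx
    rw [Set.mem_toFinset] at hs hx ⊢
    intro hxp
    apply hx.2
    rw [← D.inter_eq hpq hs.1 hp hs.2]
    exact ⟨hx.1, hxp⟩
  have h3 := Set.ncard_add_ncard_compl (blk H B p)
  rw [D.card_blk] at h3
  rw [h1] at h2
  omega

theorem exists_q [FaithfulSMul G Ω] : ∃ q : ℕ, 2 ≤ q ∧ q + 1 ≤ B.ncard ∧ ∀ p p' : G ⧸ H, p ≠ p' →
    (Ln H B p p').ncard = q + 1 ∧ ∀ s ∈ Ln H B p p', s ≠ p → ∃ a ∈ Ax A₀ p, a • p' = s := by
  obtain ⟨l, hlk, h1l, hcount, hr, hl, hint, -⟩ := D.ryser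
  have hn := D.card_quot
  have hBc := Set.ncard_add_ncard_compl B
  have hB2 := D.two
  have hB2' := D.two'
  have hα : 2 ≤ Nat.card A₀ := by
    obtain ⟨a, ha, ha1⟩ := D.ne
    have : Nontrivial A₀ := ⟨⟨a, ha⟩, 1, fun e => ha1 (congrArg Subtype.val e)⟩
    have := Finite.one_lt_card_iff_nontrivial.2 this
    omega
  have key : ∀ p p' : G ⧸ H, p ≠ p' →
      (∀ s ∈ Ln H B p p', s ≠ p → ∃ a ∈ Ax A₀ p, a • p' = s) ∧
      Nat.card (Lin.T (Ax A₀) p p') * ((Ln H B p p' \ {p}).ncard) = Nat.card A₀ ∧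
      2 ≤ (Ln H B p p' \ {p}).ncard ∧ (Ln H B p p' \ {p}).ncard + 1 ≤ B.ncard := by
    intro p p' hpp
    have hd := D.double hpp
    rw [hn] at hd
    have ho := D.card_orbit p p'
    set O : Set (G ⧸ H) := (fun a : Ax A₀ p => a.1 • p') '' Set.univ with hO
    obtain ⟨hs2, ht2, h4⟩ := arith1 (by omega) hB2 hlk h1l hα hcount hd ho
    have hOsub : O ⊆ Ln H B p p' \ {p} := by
      rintro _ ⟨a, -, rfl⟩
      refine ⟨D.stay p p' a.1 a.2, fun e => hpp ?_⟩
      have h5 : a.1 • p' = a.1 • p := by rw [D.fix p a.1 a.2]; exact e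
      exact (smul_left_cancel a.1 h5).symm
    have hb := arith3 (m := (Ln H B p p' \ {p}).ncard) hlk (by omega) hcount (D.bound hpp hint)
    have hOeq : O = Ln H B p p' \ {p} := by
      by_contra hne
      obtain ⟨s, hs, hsO⟩ := Set.exists_of_ssubset (Set.ssubset_iff_subset_ne.2 ⟨hOsub, hne⟩)
      set O' : Set (G ⧸ H) := (fun a : Ax A₀ p => a.1 • s) '' Set.univ with hO'
      have hps : p ≠ s := fun e => hs.2 e.symm
      have ho' := D.card_orbit p s
      rw [D.card_T hps.symm.symm hpp] at ho'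
      have hcard : O'.ncard = O.ncard :=
        Nat.eq_of_mul_eq_mul_left (by omega : 0 < Nat.card (Lin.T (Ax A₀) p p')) (ho'.trans ho.symm)
      have hO'sub : O' ⊆ Ln H B p p' \ {p} := by
        rintro _ ⟨a, -, rfl⟩
        refine ⟨?_, fun e => hps ?_⟩
        · rw [← D.line hpp (fun x hx => hx.1) hs.1 hps]
          exact D.stay p s a.1 a.2
        · have h5 : a.1 • s = a.1 • p := by rw [D.fix p a.1 a.2]; exact e
          exact (smul_left_cancel a.1 h5).symm
      have hdisj : Disjoint O O' := by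
        rw [Set.disjoint_left]
        rintro _ ⟨a, -, rfl⟩ ⟨b, -, e⟩
        apply hsO
        refine ⟨b⁻¹ * a, trivial, ?_⟩
        have e' : b.1 • s = a.1 • p' := e
        show (b⁻¹ * a : Ax A₀ p).1 • p' = s
        rw [Subgroup.coe_mul, Subgroup.coe_inv, mul_smul, ← e', inv_smul_smul]
      have h6 : O.ncard + O'.ncard ≤ (Ln H B p p' \ {p}).ncard := by
        rw [← Set.ncard_union_eq hdisj (Set.toFinite _) (Set.toFinite _)]
        exact Set.ncard_le_ncard (Set.union_subset hOsub hO'sub) (Set.toFinite _)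
      rw [hcard] at h6
      refine arith2 hB2 h1l hs2 (by omega : 1 ≤ O.ncard) ho h4 (le_trans ?_ hb)
      exact Nat.mul_le_mul_right _ (by omega)
    refine ⟨?_, ?_, ?_, ?_⟩
    · intro s hs hsp
      have : s ∈ O := by rw [hOeq]; exact ⟨hs, hsp⟩
      obtain ⟨a, -, ha⟩ := this
      exact ⟨a.1, a.2, ha⟩
    · rw [← hOeq]; exact ho
    · rw [← hOeq]; exact ht2
    · have h7 : (Ln H B p p' \ {p}).ncard * 1 ≤ (Ln H B p p' \ {p}).ncard * l := Nat.mul_le_mul_left _ h1l
      omega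
  -- two blocks
  have hnt : ∃ p₀ p₁ : G ⧸ H, p₀ ≠ p₁ := by
    have : 1 < Nat.card (G ⧸ H) := by rw [hn]; omega
    have := Finite.one_lt_card_iff_nontrivial.1 this
    exact exists_pair_ne _
  obtain ⟨p₀, p₁, h01⟩ := hnt
  obtain ⟨-, k2, k3, k4⟩ := key p₀ p₁ h01
  refine ⟨(Ln H B p₀ p₁ \ {p₀}).ncard, k3, k4, fun p p' hpp => ?_⟩
  obtain ⟨k5, k6, k7, k8⟩ := key p p' hpp
  refine ⟨?_, k5⟩
  have h8 : (Ln H B p p' \ {p}).ncard = (Ln H B p₀ p₁ \ {p₀}).ncard := by
    rw [D.card_T hpp h01, ← k2] at k6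
    refine Nat.eq_of_mul_eq_mul_left ?_ k6
    rcases Nat.eq_zero_or_pos (Nat.card (Lin.T (Ax A₀) p₀ p₁)) with h0 | h0
    · rw [h0, zero_mul] at k2; omega
    · exact h0
  rw [← h8, Set.ncard_sdiff_singleton_of_mem (show p ∈ Ln H B p p' from fun x hx => hx.1)]
  have : 0 < (Ln H B p p').ncard := Set.ncard_pos (Set.toFinite _) |>.2 ⟨p, fun x hx => hx.1⟩
  omega

theorem exists_sys [FaithfulSMul G Ω] : ∃ q : ℕ, Lin.Sys (Ax A₀) (Ln H B) q B.ncard := by
  obtain ⟨q, h1, h2, h3⟩ := D.exists_q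
  refine ⟨q, ⟨D.conj, D.fix, D.ti, ?_, ?_, ?_, ?_, ?_, ?_, ?_, ?_, h1, h2, ?_⟩⟩
  · intro x y _ z hz; exact hz.1
  · intro x y _ z hz; exact hz.2
  · intro x y z w hxy hz hw hzw
    exact D.line hxy hz hw hzw
  · intro g x y z _ hz
    exact D.sm g hz
  · intro x y z hxy hz hzx
    exact (h3 x y hxy).2 z hz hzx
  · intro x y a _ ha
    exact D.stay x y a ha
  · intro x y hxy
    exact (h3 x y hxy).1
  · intro x a ha ha1
    exact D.card_fix x a ha ha1
  · rw [D.card_quot]
    have := Set.ncard_add_ncard_compl B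
    have := D.two'
    omega

theorem abelian [FaithfulSMul G Ω] (p : G ⧸ H) {a b : G} (ha : a ∈ Ax A₀ p) (hb : b ∈ Ax A₀ p) : a * b = b * a := by
  obtain ⟨q, hS⟩ := D.exists_sys
  exact hS.abelian D.two_trans ha hb

/-- `G` is faithful on the blocks -/
theorem faithful [FaithfulSMul G Ω] : FaithfulSMul G (G ⧸ H) := by
  obtain ⟨l, hlk, h1l, hcount, hr, hl, hint, hfix⟩ := D.ryser
  have key : ∀ g : G, (∀ p : G ⧸ H, g • p = p) → g = 1 := by
    intro g hg
    have h1 : (fixedBy (G ⧸ H) g) = Set.univ := by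
      ext p; simp [mem_fixedBy, hg p]
    have h2 := hfix g
    rw [h1, Set.ncard_univ, D.card_quot] at h2
    have h3 : fixedBy Ω g = Set.univ := by
      apply Set.eq_of_subset_of_ncard_le (Set.subset_univ _) _ (Set.toFinite _)
      rw [Set.ncard_univ]
      exact h2.le
    refine eq_of_smul_eq_smul (α := Ω) (fun z => ?_)
    rw [one_smul]
    have : z ∈ fixedBy Ω g := by rw [h3]; trivial
    exact this
  refine ⟨fun {g g'} hgg => ?_⟩
  have := key (g'⁻¹ * g) (fun p => by rw [mul_smul, hgg p, inv_smul_smul])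
  exact (inv_mul_eq_one.1 this).symm

end Axis

end Cfsg.Agent.H432.SymDes
end

-- part: H432/SymEnd
section
/-!
# 2-transitive groups with a second subgroup of index `n` (S3706)

`main`: the statement S3706 for any universe levels.
-/

set_option autoImplicit false
set_option linter.unusedSectionVars false

namespace Cfsg.Agent.H432.SymDes

open MulAction

variable {G Ω : Type*} [Group G] [MulAction G Ω]

theorem Axis.ab {H : Subgroup G} {B : Set Ω} {A₀ : Subgroup G} [Finite G] [Finite Ω] [FaithfulSMul G Ω]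
    (D : Axis H B A₀) : H360.ON.Ab (Ax A₀ : G ⧸ H → Subgroup G) := by
  have h2 := D.two_trans
  rw [is_two_pretransitive_iff] at h2
  have hF : H360.ON.Fam (Ax A₀ : G ⧸ H → Subgroup G) := by
    refine ⟨fun a b c d hab hcd => h2 hab hcd, D.fix, D.conj, ?_⟩
    obtain ⟨a, ha, ha1⟩ := D.ne
    have hm : a ∈ Ax A₀ ((1 : G) : G ⧸ H) := by
      rw [D.mem_Ax]; simpa using ha
    have h3 := D.card_fix _ a hm ha1
    have h4 : 1 < (fixedBy (G ⧸ H) a).ncard := by have := D.two; omega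
    obtain ⟨y, hy, hyx⟩ := Set.exists_ne_of_one_lt_ncard h4 ((1 : G) : G ⧸ H)
    exact ⟨((1 : G) : G ⧸ H), y, hyx.symm, a, hm, ha1, hy⟩
  exact ⟨⟨hF, fun a b hab x hx hy => D.ti a b x hab hx hy⟩, fun p a ha b hb => D.abelian p ha hb⟩

/-- S3706 -/
theorem main [Finite G] [FaithfulSMul G Ω] [Finite Ω] (h2 : IsMultiplyPretransitive G Ω 2) (H : Subgroup G)
    (hidx : H.index = Nat.card Ω) (hnt : ¬ IsPretransitive H Ω) (hfix : ∀ a : Ω, ∃ h : H, h • a ≠ a)
    (hunf : ∃ a : Ω, ∃ h : H, h ≠ 1 ∧ ∀ b ∈ orbit H a, h • b = b) :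
    ∃ (m : ℕ) (F : Type) (_ : Field F) (_ : Fintype F), 2 ≤ m ∧
      Nat.card Ω = (Fintype.card F ^ (m + 1) - 1) / (Fintype.card F - 1) ∧
      ∃ N : Subgroup G, N.Normal ∧ Nonempty (N ≃* Matrix.ProjectiveSpecialLinearGroup (Fin (m + 1)) F) ∧
        Subgroup.centralizer (N : Set G) = ⊥ := by
  obtain ⟨a, h₀, hh₀, hb₀⟩ := hunf
  have htwo : ∀ c : Ω, 2 ≤ (orbit H c).ncard := by
    intro c
    obtain ⟨h, hh⟩ := hfix c
    have h1 : ({h • c, c} : Set Ω) ⊆ orbit H c := by
      rintro x (rfl | rfl)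
      · exact mem_orbit c h
      · exact mem_orbit_self x
    have h3 := Set.ncard_le_ncard h1 (Set.toFinite _)
    rwa [Set.ncard_pair hh] at h3
  have hD : Des H (orbit H a) := by
    refine ⟨h2, hidx, S3704.result h2 H hidx hnt hfix, ⟨a, rfl⟩, htwo a, ?_⟩
    obtain ⟨c, hc⟩ : ∃ c, c ∉ orbit H a := by
      by_contra hcon
      push Not at hcon
      apply hnt
      refine ⟨fun x y => ?_⟩
      have h3 := orbit_eq_iff.2 (hcon x)
      have h4 := hcon y
      rw [← h3] at h4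
      exact h4
    refine (htwo c).trans (Set.ncard_le_ncard ?_ (Set.toFinite _))
    intro x hx hxa
    apply hc
    have h3 := orbit_eq_iff.2 hx
    have h4 := orbit_eq_iff.2 hxa
    rw [← orbit_eq_iff, ← h3, h4]
  obtain ⟨A₀, k1, k2, k3, k4, k5⟩ := hD.exists_axis
    ⟨h₀.1, fun e => hh₀ (Subtype.ext e), fun b hb => hb₀ b hb⟩
  have D : Axis H (orbit H a) A₀ := ⟨hD, k1, k2, k3, k4, k5⟩
  have : FaithfulSMul G (G ⧸ H) := D.faithful
  obtain ⟨l1, l2, -, -, F, _, _, n, hn, hiso, hcard⟩ := H360.ON.onan_card D.ab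
  obtain ⟨m, rfl⟩ : ∃ m, n = m + 1 := ⟨n - 1, by omega⟩
  refine ⟨m, F, inferInstance, inferInstance, by omega, ?_, _, l1, hiso, l2⟩
  rw [hD.card_quot] at hcard
  rw [← hcard]
  have : 1 < Fintype.card F := Fintype.one_lt_card
  exact (Nat.mul_div_cancel _ (by omega)).symm

end Cfsg.Agent.H432.SymDes
end
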